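/-
Finite checks in the unipotent subgroup of E₆ over the field with four elements.
-/
import Cfsg.Agent.H80M.Dat
import Cfsg.Agent.H40.E6a

set_option autoImplicit false

namespace Cfsg.Agent.H80M

open H14 (force force_eq allN allN_iff)
open Cfsg.Lie H40

/-- the word for the root element in position `p` with parameter the `k`-th power of the generator -/
def wd (p k : ℕ) : ℕ := Nat.shiftLeft (Nat.succ k) (Nat.mul (nat_lit 2) p)

/-- the relations of the unipotent subgroup -/
noncomputable def twA (i j : ℕ) : ℕ :=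
  Bool.rec (force (cp (Nat.div i (nat_lit 2)) (Nat.div j (nat_lit 2))) fun p => Nat.add (Nat.shiftLeft (nat_lit 1) j)
    (Bool.rec (wd p (Nat.add (Nat.mod i (nat_lit 2)) (Nat.mod j (nat_lit 2)))) (nat_lit 0) (Nat.beq p (nat_lit 63))))
    (nat_lit 0) (Nat.beq j i)

theorem twA_lt : ∀ i < 72, ∀ j ≤ i, twA i j < 2 ^ i := by decide +kernel

set_option synthInstance.maxSize 1000 in
theorem cp_spec : ∀ p < 36, cp p p = 63 ∧ ∀ q < p, 71 - q ≠ chevE6.neg (71 - p) ∧
    (cp p q = 63 ∧ chevE6.commTerms (71 - p) (71 - q) = [] ∨ cp p q < q ∧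
      (chevE6.commTerms (71 - p) (71 - q) = [(71 - cp p q, 1, 1, 1)] ∨
        chevE6.commTerms (71 - p) (71 - q) = [(71 - cp p q, -1, 1, 1)])) := by decide +kernel

/-- the words of the fundamental reflections -/
def wE (g : ℕ) : List ℕ := [[1], [3], [2, 4], [0, 5]].getD (g - 38) []

/-- the exponent of the character of the torus -/
def eE (r : ℕ) : ℕ := ((chevE6.cartan 2 r + 2 * chevE6.cartan 4 r) % (3 : ℕ)).toNat

/-- conjugates of the letters -/
def fA (g b : ℕ) : ℕ :=
  if g = 42 then wd (b / 2) ((b % 2 + eE (71 - b / 2)) % 3)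
  else if 36 ≤ wact chevE6 (wE g) (71 - b / 2) then wd (71 - wact chevE6 (wE g) (71 - b / 2)) (b % 2) else 0

/-- images of the letters under the twist -/
def fS (b : ℕ) : ℕ := wd (71 - tauE6 (71 - b / 2)) (2 * (b % 2))

theorem fA_lt : ∀ g < 43, ∀ b < 72, fA g b < 2 ^ 72 := by decide +kernel

theorem fS_lt : ∀ b < 72, fS b < 2 ^ 72 ∧ 36 ≤ tauE6 (71 - b / 2) ∧ tauE6 (71 - b / 2) < 72 := by decide +kernel

theorem tG_lt : ∀ l < 38, tG.get l < 2 ^ 72 := by decide +kernel

theorem tG_top : ∀ i < 38, 2 ≤ i → ∃ T < 72, 2 ^ T ≤ tG.get i ∧ tG.get i < 2 ^ (T + 1) ∧ ∀ j < i, tG.get j < 2 ^ T := by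
  decide +kernel

theorem relA : allN 38 (fun i => allN (Nat.succ i) fun j => Nat.beq (homT 72 twA (fun _ _ => 0) tG.get (fun _ => 0)
    i j (twE i j) 0 % 2 ^ 72) 0) = true := by decide +kernel

set_option synthInstance.maxSize 1000 in
theorem fusA : ∀ g < 43, 38 ≤ g → ∀ l < 38, (tD.get g).testBit l = true →
    img 72 twA (fun _ _ => 0) (fA g) (fun _ => 0) (tG.get l) 0 =
      img 72 twA (fun _ _ => 0) tG.get (fun _ => 0) (twE g l) 0 ∧
    ∀ b < 72, (tG.get l).testBit b = true → g = 42 ∨ 36 ≤ wact chevE6 (wE g) (71 - b / 2) := by decide +kernel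

theorem fixA : ∀ l < 38, img 72 twA (fun _ _ => 0) fS (fun _ => 0) (tG.get l) 0 = tG.get l := by decide +kernel

theorem domA : ∀ j : Fin 4, ∀ l < 38, ∀ b < 72, (tG.get l).testBit b = true →
    ((tD.get (38 + j)).testBit l = true ↔ ¬ inJ chevE6 (CE6.Js j) (71 - b / 2)) := by decide +kernel

theorem domA' : ∀ l < 38, (tD.get 42).testBit l = true := by decide +kernel

end Cfsg.Agent.H80M
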