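/-
Finite checks on the presentation of the covering group of the unipotent subgroup.
-/
import Cfsg.Agent.H80M.Dat

set_option autoImplicit false

namespace Cfsg.Agent.H80M

open H14 (force force_eq allN allN_iff)

theorem twE_lt : ∀ i < 38, ∀ j ≤ i, twE i j < 2 ^ i := by decide +kernel

theorem twE_lt' : ∀ g < 38 + 5, ∀ l < 38, twE g l < 2 ^ 38 := fun _ _ _ _ => Nat.mod_lt _ (by decide)

theorem twE_cen : ∀ a < 2, twE a a = 0 ∧ ∀ i < 38, a < i → twE i a = 2 ^ a := by decide +kernel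

theorem levE₁ : allN 24 (lev 38 274877906944 twE) = true := by decide +kernel
theorem levE₂ : allN 7 (fun g => lev 38 274877906944 twE (Nat.add g 24)) = true := by decide +kernel
theorem levE₃ : allN 4 (fun g => lev 38 274877906944 twE (Nat.add g 31)) = true := by decide +kernel
theorem levE₄ : allN 3 (fun g => lev 38 274877906944 twE (Nat.add g 35)) = true := by decide +kernel

theorem levE : ∀ g < 38, lev 38 (2 ^ 38) twE g = true := fun g hg => by
  rcases Nat.lt_or_ge g 24 with h | h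
  · exact allN_iff.1 levE₁ g h
  rcases Nat.lt_or_ge g 31 with h1 | h1
  · exact Nat.sub_add_cancel h ▸ allN_iff.1 levE₂ (g - 24) (by omega)
  rcases Nat.lt_or_ge g 35 with h2 | h2
  · exact Nat.sub_add_cancel h1 ▸ allN_iff.1 levE₃ (g - 31) (by omega)
  · exact Nat.sub_add_cancel h2 ▸ allN_iff.1 levE₄ (g - 35) (by omega)

theorem liftE₁ : allN 5 (fun g => allN 38 (liftOK 38 274877906944 twE (tD.get (Nat.add g 38))
    (twE (Nat.add g 38)))) = true := by decide +kernel

theorem liftE : ∀ g < 38 + 5, 38 ≤ g → (∀ i < 38, liftOK 38 (2 ^ 38) twE (tD.get g) (twE g) i = true) ∧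
    ∀ a < 2, (tD.get g).testBit a = true ∧ twE g a = 2 ^ a := fun g hg h =>
  ⟨allN_iff.1 (Nat.sub_add_cancel h ▸ allN_iff.1 liftE₁ (g - 38) (by omega)), by revert g; decide +kernel⟩

theorem commE : ∀ a < 2, ∃ X < 2 ^ 38, ∃ Y < 2 ^ 38, mulS 38 twE (fun _ _ => 0) Y 0 X =
    mulS 38 twE (fun _ _ => 0) (2 ^ a) 0 (mulS 38 twE (fun _ _ => 0) X 0 Y) := fun a ha => by
  obtain rfl | rfl : a = 0 ∨ a = 1 := by omega
  exacts [⟨69632, by decide, 34896609280, by decide, by decide +kernel⟩,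
    ⟨525312, by decide, 68753031168, by decide, by decide +kernel⟩]

theorem cE₁ : ∀ g < 38 + 5, ∀ l < 38, zE₁.testBit (g * 38 + l) = true →
    g < 38 ∧ (l < 2 ∨ desOK 38 twE tM.get g l = true) := by decide +kernel

theorem cE₂ : ∀ i < 38, ∀ j ≤ i, (run (testU 38 (2 ^ 38) 5 twE tD.get) lE₁ zE₁).testBit (i * 38 + j) = true := by
  have h : force (run (testU 38 274877906944 5 twE tD.get) lE₁ zE₁) (fun Z => allN 38 fun i => allN (Nat.succ i)
    fun j => Z.testBit (i * 38 + j)) = true := by decide +kernel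
  rw [force_eq] at h
  exact fun i hi j hj => allN_iff.1 (allN_iff.1 h i hi) j (Nat.lt_succ_of_le hj)

theorem cE₃ : ∀ g < 38, ∀ l < 38, zE₂.testBit (g * 38 + l) = true → l < 2 ∧ l < g := by decide +kernel

theorem cE₄ : ∀ a < 2, (run (testU 38 (2 ^ 38) 0 twE tD.get) lE₂ zE₂).testBit (a * 38 + a) = true := by
  decide +kernel

end Cfsg.Agent.H80M
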