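/-
The unipotent subgroup of the twisted group of type E₆ over the field with four elements.
-/
import Cfsg.Agent.H80M.ChkA
import Cfsg.Agent.H80M.ChkE
import Cfsg.Agent.H40.E6b
import Cfsg.Agent.S1027

set_option autoImplicit false

namespace Cfsg.Agent.H80M

open H14 (force force_eq allN allN_iff beq_iff)
open H63 (nf map_nf nf_zero' nf_add pcS mem_pcS shl_one)
open Cfsg.Lie H37 H37.Chev H40

theorem free_of_top {Γ : Type*} [Group Γ] {a : ℕ → Γ} {n i T : ℕ} {E : ℕ → ℕ} (hT : T < n) (hf : a T ∉ pcS a ⊥ T)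
    (h1 : 2 ^ T ≤ E i) (h2 : E i < 2 ^ (T + 1)) (h3 : ∀ j < i, E j < 2 ^ T) :
    nf 2 n a (E i) ∉ pcS (fun l => nf 2 n a (E l)) ⊥ i := fun h => by
  have h4 : E i - 2 ^ T < 2 ^ T := by omega
  have h5 := pcS_le (K := pcS a ⊥ T) (fun j hj => nf_mem_pcS (h3 j hj)) bot_le h
  rw [show E i = 1 * 2 ^ T + (E i - 2 ^ T) by omega, nf_add two_pos _ _ _ _ _ h4, one_mul, nf_two_pow _ hT] at h5
  exact hf ((Subgroup.mul_mem_cancel_right _ (nf_mem_pcS h4)).1 h5)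

theorem nf_σ {A Φ I : Type*} [Group A] (T : Tw A Φ I) {n W : ℕ} {a b : ℕ → A}
    (h : ∀ l < n, W.testBit l = true → a l ∈ T.U ∧ T.σ (a l) = b l) :
    nf 2 n a W ∈ T.U ∧ T.σ (nf 2 n a W) = nf 2 n b W := by
  let P : Subgroup (A × A) :=
    { carrier := {p | p.1 ∈ T.U ∧ T.σ p.1 = p.2}
      one_mem' := ⟨one_mem _, T.σ_one⟩
      mul_mem' := fun {a b} ha hb => ⟨mul_mem ha.1 hb.1, by
        rw [Prod.fst_mul, T.σ_mul _ (T.U_le ha.1) _ (T.U_le hb.1), ha.2, hb.2]; rfl⟩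
      inv_mem' := fun {a} ha => ⟨inv_mem ha.1, by rw [Prod.fst_inv, T.σ_inv (T.U_le ha.1), ha.2]; rfl⟩ }
  have h3 := nf_mem_bits P n (s := fun l => (a l, b l)) W h
  rwa [show nf 2 n (fun l => (a l, b l)) W = (nf 2 n a W, nf 2 n b W) from
    Prod.ext (map_nf (MonoidHom.fst A A) _ _ _ _) (map_nf (MonoidHom.snd A A) _ _ _ _)] at h3

variable {K : Type*} [Field K] (w : Kˣ)

/-- the letters of the unipotent subgroup -/
noncomputable def aE (l : ℕ) : GL chevE6.Idx K := (SE K).x (71 - l / 2) (w ^ (l % 2))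

/-- the letters of its fixed points -/
noncomputable def sE (l : ℕ) : GL chevE6.Idx K := nf 2 72 (aE w) (tG.get l)

/-- the fusing elements -/
noncomputable def gE (φ : K →+* K) (g : ℕ) : GL chevE6.Idx K :=
  if g = 42 then eh φ ((1, w), 1, 1) else nw (SE K) (wE g)

theorem lt72 (l : ℕ) : 71 - l < chevE6.nroots := show _ < 72 by omega

variable {w} (h2 : (2 : K) = 0) (hw : (w : K) ^ 2 = w + 1)
include h2

theorem cast_pm {c : ℤ} (h : c = 1 ∨ c = -1) : (c : K) = 1 := by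
  rcases h with rfl | rfl
  · simp
  · push_cast; linear_combination -h2

theorem nw_conj {L : List ℕ} (hL : ∀ i ∈ L, i < 6) {r : ℕ} (hr : r < 72) (t : K) : wact chevE6 L r < 72 ∧
    nw (SE K) L * (SE K).x r t * (nw (SE K) L)⁻¹ = (SE K).x (wact chevE6 L r) t := by
  induction L with
  | nil => exact ⟨hr, by simp [nw, wact]⟩
  | cons i L ih =>
    have hi : i < chevE6.rank := hL i List.mem_cons_self
    obtain ⟨h3, h4⟩ := ih fun k hk => hL k (List.mem_cons_of_mem _ hk)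
    have h5 := simple_lt i hi
    rw [show wact chevE6 (i :: L) r = _ from reflectRoot_eq hi (wact chevE6 L r)]
    refine ⟨refl_lt h5 h3, ?_⟩
    have := n_conj' (SE K) h5 h3 one_ne_zero t
    rw [cast_pm h2 (eta_eq_or h5 h3), one_zpow, one_mul, one_mul] at this
    rw [nw_cons, ← this, ← h4]; group

include hw

theorem w_cube : w ^ 3 = 1 := Units.ext (by push_cast; linear_combination (w + 1 : K) * hw + (w : K) * h2)

omit h2 in
theorem nf_wd {p k : ℕ} (hp : p < 36) (hk : k < 3) : nf 2 72 (aE w) (wd p k) = (SE K).x (71 - p) (w ^ k) := by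
  have e0 : aE w (2 * p) = (SE K).x (71 - p) (w ^ 0) := by simp [aE]
  have e1 : aE w (2 * p + 1) = (SE K).x (71 - p) (w ^ 1) := by
    rw [aE, show (2 * p + 1) / 2 = p by omega, show (2 * p + 1) % 2 = 1 by omega]
  rw [show wd p k = (k + 1) * 2 ^ (2 * p) from Nat.shiftLeft_eq _ _]
  obtain rfl | rfl | rfl : k = 0 ∨ k = 1 ∨ k = 2 := by omega
  · rw [zero_add, one_mul, nf_two_pow _ (by omega), e0]
  · rw [← pow_succ', nf_two_pow _ (by omega), e1]
  · rw [show (2 + 1) * 2 ^ (2 * p) = 1 * 2 ^ (2 * p + 1) + 2 ^ (2 * p) by ring,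
      nf_add two_pos _ _ _ _ _ (Nat.pow_lt_pow_right one_lt_two (by omega)), one_mul, nf_two_pow _ (by omega),
      nf_two_pow _ (by omega), e0, e1, (SE K).x_add _ (lt72 p), hw, pow_one, pow_zero]

theorem aE_rel : Rel 72 twA (aE w) 72 := fun i hi j hj => by
  rcases hj.lt_or_eq with hj | rfl
  swap
  · rw [lhs, if_pos rfl, twA, beq_iff.2 rfl, aE, (SE K).x_add _ (lt72 _), ← two_mul, h2, zero_mul,
      x_zero _ (lt72 _)]
    exact (nf_zero' _ _ _).symm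
  have e : twA i j = 2 ^ j + Bool.rec (wd (cp (i / 2) (j / 2)) (i % 2 + j % 2)) 0 (Nat.beq (cp (i / 2) (j / 2)) 63) := by
    rw [twA, show Nat.beq j i = false from Bool.eq_false_iff.2 fun h => hj.ne (beq_iff.1 h), force_eq, shl_one]; rfl
  obtain ⟨c1, c2⟩ := cp_spec (i / 2) (by omega)
  rw [lhs, if_neg hj.ne, e, mul_assoc, inv_mul_eq_iff_eq_mul]
  rcases (show j / 2 ≤ i / 2 by omega).lt_or_eq with h | h
  swap
  · rw [h, c1, show Nat.beq 63 63 = true from rfl, add_zero, nf_two_pow _ (by omega), aE, aE, h,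
      (SE K).x_add _ (lt72 _), (SE K).x_add _ (lt72 _), add_comm]
  obtain ⟨c3, c4⟩ := c2 _ h
  rw [aE, aE, (SE K).x_comm _ (lt72 _) _ (lt72 _) (by omega) c3, ChevalleyDatum.commWord, mul_assoc]
  congr 1
  rcases c4 with ⟨c4, c5⟩ | ⟨c4, c5⟩
  · rw [c4, c5, show Nat.beq 63 63 = true from rfl, add_zero, nf_two_pow _ (by omega)]
    exact mul_one _
  have c6 : wd (cp (i / 2) (j / 2)) (i % 2 + j % 2) < 2 ^ j := by
    rw [show wd _ _ = (i % 2 + j % 2 + 1) * 2 ^ (2 * cp (i / 2) (j / 2)) from Nat.shiftLeft_eq _ _]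
    calc _ < 2 ^ 2 * 2 ^ (2 * cp (i / 2) (j / 2)) := Nat.mul_lt_mul_of_pos_right (by omega) (by positivity)
      _ ≤ _ := by rw [← pow_add]; exact Nat.pow_le_pow_right two_pos (by omega)
  rw [show Nat.beq _ 63 = false from Bool.eq_false_iff.2 fun h => by have := beq_iff.1 h; omega, ← one_mul (2 ^ j),
    nf_add two_pos _ _ _ _ _ c6, one_mul, nf_two_pow _ (by omega), nf_wd hw (by omega) (by omega), pow_add]
  have c7 : ∀ t : K, -t = t := fun t => by linear_combination -t * h2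
  rcases c5 with c5 | c5 <;> simp [c5, gword, aE, c7]

theorem sE_rel {i j : ℕ} (hi : i < 38) (hj : j ≤ i) : lhs (sE w) i j = nf 2 38 (sE w) (twE i j) := by
  have := ((aE_rel h2 hw).cx le_rfl twA_lt).homT_spec (fun _ => 0) 0 hi.le (fun l hl => tG_lt l (by omega))
    (twE_lt i hi j hj) (tG_lt i hi) (tG_lt j (by omega))
    (beq_iff.1 (allN_iff.1 (allN_iff.1 relA i hi) j (Nat.lt_succ_of_le hj)))
  rw [Rel.cx_im] at this
  exact this.trans ((mul_one _).trans (mul_one _))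

theorem img_eq {fw : ℕ → ℕ} {n W : ℕ} (h : ∀ l < n, fw l < 2 ^ 72) (hW : W < 2 ^ n) :
    ((aE_rel h2 hw).cx le_rfl twA_lt).val (img 72 twA (fun _ _ => 0) fw (fun _ => 0) W 0) =
      nf 2 n (fun l => nf 2 72 (aE w) (fw l)) W := by
  rw [Cx.img_spec _ _ le_rfl h hW, Rel.cx_im, Cx.val_word _ (by positivity), nf_zero', one_mul]

variable {φ : K →+* K} (hφ : ∀ t, φ t = t ^ 2)
include hφ

theorem gE_conj {g b : ℕ} (hb : b < 72) (h : g = 42 ∨ 36 ≤ wact chevE6 (wE g) (71 - b / 2)) :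
    gE w φ g * aE w b * (gE w φ g)⁻¹ = nf 2 72 (aE w) (fA g b) := by
  unfold gE fA
  split_ifs with h3 h4
  · rw [nf_wd hw (by omega) (by omega), aE, (isH_eh φ _).2 _ (lt72 _), ← Units.val_pow_eq_pow_val,
      ← Units.val_pow_eq_pow_val, ← pow_eq_pow_mod _ (w_cube h2 hw), ← Units.val_mul, pow_add, mul_comm, eE,
      ← zpow_natCast w (Int.toNat _), Int.toNat_of_nonneg (Int.emod_nonneg _ (by decide)),
      ← zpow_eq_zpow_emod' _ (w_cube h2 hw), show chi chevE6 _ _ = ∏ i ∈ Finset.range 6, _ from rfl]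
    simp [Finset.prod_range_succ, ec, show Units.map (φ : K →* K) w = w ^ 2 from Units.ext (hφ w), zpow_add,
      zpow_mul]
  · have hL : ∀ i ∈ wE g, i < 6 := by
      unfold wE
      generalize g - 38 = n
      rcases n with _ | _ | _ | _ | n <;> simp
    obtain ⟨h5, h6⟩ := nw_conj h2 hL (lt72 (b / 2)) ((w : K) ^ (b % 2))
    rw [nf_wd hw (by omega) (by omega), aE, h6, Nat.sub_sub_self (by omega)]
  · omega

theorem sE_RT (g l : ℕ) (h : Valid 38 5 tD.get g l) : RT 38 twE (sE w) (gE w φ) g l = 1 := by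
  rw [RT, inv_mul_eq_one]
  obtain ⟨hl, ⟨h3, h4⟩ | ⟨h3, h4, h5⟩⟩ := h
  · rw [if_pos h4, sE_rel h2 hw h4 h3]
  obtain ⟨h6, h7⟩ := fusA g h4 h3 l hl h5
  have h8 := congrArg ((aE_rel h2 hw).cx le_rfl twA_lt).val h6
  rw [img_eq h2 hw (fA_lt g h4) (tG_lt l hl), img_eq h2 hw tG_lt (twE_lt' g h4 l hl)] at h8
  rw [if_neg (by omega)]
  exact h8.symm.trans ((nf_bits _ _ fun b hb h9 => (gE_conj h2 hw hφ hb (h7 b hb h9)).symm).trans
    (map_nf (MulAut.conj (gE w φ g)).toMonoidHom _ _ _ _).symm)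

theorem sE_mem {l : ℕ} (hl : l < 38) : sE w l ∈ (TE φ).mt.U ⊓ (TE φ).mt.Fix := by
  have h3 := nf_σ (TE φ).mt (a := aE w) (b := fun b => nf 2 72 (aE w) (fS b)) (n := 72) (W := tG.get l) fun b hb _ =>
    ⟨(TE φ).mt_U ▸ x_mem_X _ (show 36 ≤ 71 - b / 2 by omega) (lt72 _) _, ((TE φ).σ_x _ (lt72 _) _).trans (by
      obtain ⟨-, a, c⟩ := fS_lt b hb
      rw [fS, nf_wd hw (by omega) (by omega), Nat.sub_sub_self (by omega), TE_e, hφ, ← pow_mul, mul_comm _ 2,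
        cast_pm h2 (Int.eq_one_or_neg_one_of_mul_eq_one (CE6.γ_sq _ (lt72 _))), one_mul]
      rfl)⟩
  have h4 := congrArg ((aE_rel h2 hw).cx le_rfl twA_lt).val (fixA l hl)
  rw [img_eq h2 hw (fun b hb => (fS_lt b hb).1) (tG_lt l hl), Cx.val_word _ (tG_lt l hl)] at h4
  exact ⟨h3.1, (TE φ).mt.U_le h3.1, h3.2.trans h4⟩

omit h2 hw hφ in
theorem sE_dom (j : Fin 4) {l : ℕ} (hl : l < 38) :
    if (tD.get (38 + j)).testBit l = true then sE w l ∈ (TE φ).mt.Up j else sE w l ∈ (TE φ).mt.XJ j := by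
  have h : ∀ b, aE w b ∈ (TE φ).mt.X ⟨71 - b / 2, lt72 _⟩ := fun b => (mem_XF _).2 ⟨_, rfl⟩
  split_ifs with h3
  · exact nf_mem_bits _ _ _ fun b hb h4 => X_le_XS _ (s := {r | (TE φ).mt.pos r ∧ r ∉ (TE φ).mt.J j})
      (r := ⟨71 - b / 2, lt72 _⟩) ⟨show 36 ≤ 71 - b / 2 by omega, (domA j l hl b hb h4).1 h3⟩ (h b)
  · exact nf_mem_bits _ _ _ fun b hb h4 => X_le_XS _ (s := (TE φ).mt.J j) (r := ⟨71 - b / 2, lt72 _⟩)
      (not_not.1 fun h5 => h3 ((domA j l hl b hb h4).2 h5)) (h b)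

variable [Fintype K] (hK : Fintype.card K = 2 ^ 2)
include hK

omit hφ in
theorem w_pow (u : Kˣ) : ∃ k < 3, u = w ^ k := by
  have h3 : orderOf w = 3 := orderOf_eq_prime (hp := ⟨Nat.prime_three⟩) (w_cube h2 hw) (by
    rintro rfl; simp at hw)
  have h4 : Subgroup.zpowers w = ⊤ := Subgroup.eq_top_of_card_eq _ (by
    rw [Nat.card_zpowers, h3, Nat.card_units, Nat.card_eq_fintype_card, hK]; rfl)
  obtain ⟨k, rfl⟩ := (Submonoid.mem_powers_iff _ _).1 (mem_powers_iff_mem_zpowers.2 (h4 ▸ Subgroup.mem_top u))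
  exact ⟨k % 3, by omega, pow_eq_pow_mod _ (w_cube h2 hw)⟩

omit hφ in
theorem sE_free (i : ℕ) (hi : i < 38) (h : 2 ≤ i) : sE w i ∉ pcS (sE w) ⊥ i := by
  obtain ⟨T, a, b, c, d⟩ := tG_top i hi h
  refine free_of_top a (((aE_rel h2 hw).pc twA_lt).free ?_ a) b c d
  have h3 := S1027.result (F := K) chevE6 (by simp)
  rw [hK, ← pow_mul, ← matRel_U isChev_E6] at h3
  refine h3.ge.trans (Subgroup.card_le_of_le (X_le_of _ fun r h4 h5 t => ?_))
  replace h4 : 36 ≤ r := h4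
  replace h5 : r < 72 := h5
  rcases eq_or_ne t 0 with rfl | ht
  · rw [x_zero _ h5]; exact one_mem _
  obtain ⟨k, hk, e⟩ := w_pow h2 hw hK (Units.mk0 t ht)
  have := nf_wd hw (p := 71 - r) (by omega) hk
  rw [Nat.sub_sub_self (by omega), ← Units.val_pow_eq_pow_val, ← e] at this
  exact this ▸ nf_mem_bits _ _ _ fun l hl _ => mem_pcS hl

omit h2 hw in
theorem card_UE : Nat.card ↥((TE φ).mt.U ⊓ (TE φ).mt.Fix) = 2 ^ 36 := by
  rw [(TE φ).mt_U', Fix_E6 (frob_iter_self hK hφ) hφ, card_U1_E6 Nat.prime_two.isPrimePow hK hφ]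

theorem sE_gen : pcS (sE w) ⊥ 38 = (TE φ).mt.U ⊓ (TE φ).mt.Fix := by
  refine Subgroup.eq_of_le_of_card_ge (pcS_le (fun l hl => sE_mem h2 hw hφ hl) bot_le) ?_
  rw [card_UE hφ hK]
  exact (Nat.le_mul_of_pos_right _ Nat.card_pos).trans (card_ge_of_free (r := 2) (k := 36)
    fun i a b => sE_free h2 hw hK i b a)

theorem torus_E {h : GL chevE6.Idx K} (hh : h ∈ (TE φ).mt.H) (hf : h ∈ (TE φ).mt.Fix) :
    ∃ k : ℕ, h = gE w φ 42 ^ k := by
  obtain ⟨⟨⟨s, u⟩, t, v⟩, rfl⟩ : h ∈ (eh φ).range := range_eh (frob_iter_self hK hφ) ▸ ⟨hh, hf⟩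
  have h3 : ∀ t : fixU φ, t = 1 := fun t => Subtype.ext (mul_left_cancel (a := t.1) (Units.ext (by
    have := (mem_fixU φ).1 t.2
    rw [hφ] at this
    simpa [pow_two] using this)))
  have h4 : s ^ 3 = 1 := by
    obtain ⟨k, -, rfl⟩ := w_pow h2 hw hK s
    rw [← pow_mul, mul_comm, pow_mul, w_cube h2 hw, one_pow]
  obtain ⟨k, -, e⟩ := w_pow h2 hw hK (u * (s ^ 2)⁻¹)
  refine ⟨k, ?_⟩
  rw [gE, if_pos rfl, ← map_pow, ← mul_one (eh φ (_ ^ k)), ← (eh_eq_one φ (s := s)).2 ⟨h4, by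
    rw [show Units.map (φ : K →* K) s = s ^ 2 from Units.ext (hφ s), ← pow_succ', h4], rfl, rfl, rfl⟩, ← map_mul,
    h3 t, h3 v]
  simp [← e]

end Cfsg.Agent.H80M
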