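/-
A central extension of a subgroup whose class is stable gives, by transfer, a central extension of the group.
-/
import Cfsg.Agent.H63.Final
import Cfsg.Agent.H40.TwAbs3
import Mathlib.GroupTheory.SemidirectProduct

set_option autoImplicit false

namespace Cfsg.Agent.H80M

open H63 (LB mem_of_pow_coprime)

section lift
variable {E A : Type*} [Group E] [Group A] (π : E →* A)

/-- conjugation by `g` lifts over `S` -/
def Lift (g : A) (S : Set A) : Prop := ∃ φ : E → E, (∀ x, π x ∈ S → π (φ x) = g * π x * g⁻¹) ∧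
  (∀ x y, π x ∈ S → π y ∈ S → φ (x * y) = φ x * φ y) ∧ ∀ z ∈ π.ker, φ z = z

/-- conjugation by `g` lifts wherever possible -/
def Good (g : A) : Prop := Lift π g {u | g * u * g⁻¹ ∈ π.range}

variable {π}

theorem Lift.comp {g g' : A} {S S' S'' : Set A} (h : Lift π g S) (h' : Lift π g' S')
    (hS : ∀ x, π x ∈ S'' → π x ∈ S ∧ g * π x * g⁻¹ ∈ S') : Lift π (g' * g) S'' := by
  obtain ⟨φ, a1, a2, a3⟩ := h
  obtain ⟨ψ, b1, b2, b3⟩ := h'
  have c : ∀ x, π x ∈ S'' → π (φ x) ∈ S' := fun x hx => a1 x (hS x hx).1 ▸ (hS x hx).2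
  refine ⟨ψ ∘ φ, fun x hx => ?_, fun x y hx hy => ?_, fun z hz => by simp [a3 z hz, b3 z hz]⟩
  · rw [Function.comp, b1 _ (c x hx), a1 x (hS x hx).1]; group
  · simp only [Function.comp]; rw [a2 x y (hS x hx).1 (hS y hy).1, b2 _ _ (c x hx) (c y hy)]

theorem Lift.mono {g : A} {S S' : Set A} (h : Lift π g S) (hS : ∀ x, π x ∈ S' → π x ∈ S) : Lift π g S' := by
  obtain ⟨φ, a1, a2, a3⟩ := h
  exact ⟨φ, fun x hx => a1 x (hS x hx), fun x y hx hy => a2 x y (hS x hx) (hS y hy), a3⟩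

theorem lift_range (hc : π.ker ≤ Subgroup.center E) {g : A} (hg : g ∈ π.range) : Lift π g Set.univ := by
  obtain ⟨e, rfl⟩ := hg
  exact ⟨fun x => e * x * e⁻¹, by simp, fun x y _ _ => by group,
    fun z hz => mul_inv_eq_iff_eq_mul.2 (Subgroup.mem_center_iff.1 (hc hz) e)⟩

theorem Good.bruhat (hc : π.ker ≤ Subgroup.center E) {u m v : A} (hu : u ∈ π.range) (h : Good π m)
    (hv : v ∈ π.range) : Good π (u * m * v) := by
  rw [mul_assoc]
  refine (((lift_range hc hv).comp h fun x hx => ⟨trivial, ?_⟩).comp (lift_range hc hu)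
    fun x hx => ⟨hx, trivial⟩)
  have := mul_mem (mul_mem (inv_mem hu) hx) hu
  change _ ∈ π.range
  convert this using 1
  group

end lift

universe u

theorem lb_of_good {G : Type u} [Group G] [Finite G] {E : Type*} [Group E] [Finite E] (π : E →* G)
    (hc : π.ker ≤ Subgroup.center E) (hk : π.ker ≤ commutator E)
    (hco : (Nat.card π.ker).Coprime π.range.index) (h : ∀ g, Good π g) : LB G (Nat.card π.ker) := by
  classical
  let X := G ⧸ π.range
  have := Fintype.ofFinite X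
  let := H81.commGroupOfLeCenter hc
  choose φ a1 a2 a3 using h
  let g0 : X → G := fun x => (Quotient.mk (MulAction.orbitRel π.range X) x).out.out
  have hg0 : ∀ e x, g0 ((π e)⁻¹ • x) = g0 x := fun e x => by
    simp only [g0]
    rw [Quotient.sound (s := MulAction.orbitRel π.range X) (a := (π e)⁻¹ • x) (b := x)
      ⟨(⟨π e, e, rfl⟩ : π.range)⁻¹, rfl⟩]
  have hr : ∀ x, ∃ e : E, ((π e * g0 x : G) : X) = x := fun x => by
    obtain ⟨⟨_, e, rfl⟩, he⟩ := Quotient.mk_out (s := MulAction.orbitRel π.range X) x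
    refine ⟨e⁻¹, ?_⟩
    change π e⁻¹ • ((g0 x : G) : X) = x
    rw [QuotientGroup.out_eq', ← he, map_inv]
    exact inv_smul_smul (π e) x
  choose r hr using hr
  let t : X → G := fun x => π (r x) * g0 x
  have ht : ∀ g x, (t x)⁻¹ * g * t (g⁻¹ • x) ∈ π.range := fun g x => by
    rw [mul_assoc, ← QuotientGroup.eq, hr]
    change x = g • ((t (g⁻¹ • x) : G) : X)
    rw [hr, smul_inv_smul]
  let W : Subgroup ((X → E) ⋊[mulAutArrow] G) :=
    { carrier := {w | ∀ x, π (w.left x) = (t x)⁻¹ * w.right * t (w.right⁻¹ • x)}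
      one_mem' := fun x => by simp
      mul_mem' := fun {a b} ha hb x => by
        change π (a.left x * b.left (a.right⁻¹ • x)) = _
        rw [map_mul, ha, hb, SemidirectProduct.mul_right, mul_inv_rev a.right, mul_smul]; group
      inv_mem' := fun {a} ha x => by
        change π (a.left (a.right⁻¹⁻¹ • x))⁻¹ = _
        rw [map_inv, ha, SemidirectProduct.inv_right, inv_inv, inv_smul_smul]; group }
  let ρ : W →* G := SemidirectProduct.rightHom.comp W.subtype
  let j : (X → π.ker) →* W := (SemidirectProduct.inl.comp (π.ker.subtype.compLeft X)).codRestrict W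
    fun f x => by simp [show π (f x) = 1 from (f x).2]
  have hj : Function.Injective j := fun f f' e => funext fun x =>
    Subtype.ext (congrArg (fun w : W => w.1.left x) e)
  have hcj : ∀ w f, w * j f = j (fun x => f ((ρ w)⁻¹ • x)) * w := fun w f => Subtype.ext
    (SemidirectProduct.ext (funext fun x => by
      change w.1.left x * f ((ρ w)⁻¹ • x) = f ((ρ w)⁻¹ • x) * w.1.left ((1 : G)⁻¹ • x)
      rw [inv_one, one_smul]
      exact Subgroup.mem_center_iff.1 (hc (f _).2) _) ((mul_one _).trans (one_mul _).symm))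
  let P : (X → π.ker) →* π.ker := MonoidHom.mk' (fun f => ∏ x, f x) fun _ _ => Finset.prod_mul_distrib
  have hP : ∀ (g : G) f, P (fun x => f (g • x)) = P f := fun g f => Equiv.prod_comp (MulAction.toPerm g) f
  let K := P.ker.map j
  have : K.Normal := ⟨by
    rintro _ ⟨f, hf, rfl⟩ w
    exact ⟨_, (hP _ f).trans hf, by rw [hcj, mul_inv_cancel_right]⟩⟩
  let ξ : W ⧸ K →* G := QuotientGroup.lift K ρ (by rintro _ ⟨f, -, rfl⟩; rfl)
  have b1 : ∀ e x, (g0 x)⁻¹ * π ((r x)⁻¹ * e * r ((π e)⁻¹ • x)) * (g0 x)⁻¹⁻¹ =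
      (t x)⁻¹ * π e * t ((π e)⁻¹ • x) := fun e x => by
    simp only [t, hg0, map_mul, map_inv]; group
  let Ψ : E →* W := MonoidHom.mk' (fun e => ⟨⟨fun x => φ (g0 x)⁻¹ ((r x)⁻¹ * e * r ((π e)⁻¹ • x)), π e⟩,
    fun x => (a1 _ _ (b1 e x ▸ ht _ x :)).trans (b1 e x)⟩) fun e e' => Subtype.ext (SemidirectProduct.ext
      (funext fun x => by
        change φ _ _ = φ _ _ * φ (g0 ((π e)⁻¹ • x))⁻¹ _
        have := b1 e' ((π e)⁻¹ • x)
        rw [hg0] at this ⊢
        rw [← a2 _ _ _ (b1 e x ▸ ht _ x :) (this ▸ ht _ _ :), map_mul, mul_inv_rev, mul_smul]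
        congr 1
        group) (map_mul π e e'))
  let c : π.ker →* W ⧸ K := (QuotientGroup.mk' K).comp (j.comp (Pi.constMonoidHom X π.ker))
  have hci : Function.Injective c := (injective_iff_map_eq_one c).2 fun z hz => by
    obtain ⟨f, hf, e⟩ := (QuotientGroup.eq_one_iff _).1 hz
    rw [hj e] at hf
    have h1 : z ^ π.range.index = 1 := by
      rw [Subgroup.index, Nat.card_eq_fintype_card, ← Finset.card_univ, ← Finset.prod_const]; exact hf
    exact mem_of_pow_coprime (K := ⊥) hco pow_card_eq_one' h1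
  rw [Nat.card_congr (MonoidHom.ofInjective hci).toEquiv]
  refine LB.of_ext ξ (fun g => ?_) (fun y hy => ?_) _ ?_ ?_
  · choose f hf using ht g
    exact ⟨((⟨⟨f, g⟩, hf⟩ : W) : W ⧸ K), rfl⟩
  · obtain ⟨w, rfl⟩ := QuotientGroup.mk_surjective y
    have h1 : w.1.right = 1 := hy
    obtain ⟨f, rfl⟩ : ∃ f, j f = w := ⟨fun x => ⟨w.1.left x, (w.2 x).trans (by simp [h1])⟩,
      Subtype.ext (SemidirectProduct.ext rfl h1.symm)⟩
    refine Subgroup.mem_center_iff.2 fun v => ?_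
    obtain ⟨v, rfl⟩ := QuotientGroup.mk_surjective v
    rw [← QuotientGroup.mk_mul, hcj, QuotientGroup.mk_mul]
    congr 1
    rw [QuotientGroup.eq, ← map_inv, ← map_mul]
    exact ⟨_, by rw [SetLike.mem_coe, MonoidHom.mem_ker, map_mul, map_inv, hP, inv_mul_cancel], rfl⟩
  · rintro _ ⟨z, rfl⟩; rfl
  · rintro _ ⟨z, rfl⟩
    have h1 : c z = ((QuotientGroup.mk' K).comp Ψ) z := congrArg (QuotientGroup.mk' K) (Subtype.ext
      (SemidirectProduct.ext (funext fun x => by
        change z.1 = φ _ ((r x)⁻¹ * z.1 * r ((π z.1)⁻¹ • x))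
        rw [show π z.1 = 1 from z.2, inv_one, one_smul, Subgroup.mem_center_iff.1 (hc z.2), inv_mul_cancel_right,
          a3 _ _ z.2]) (show 1 = π z.1 from z.2.symm)))
    rw [h1]
    exact Subgroup.commutator_mono le_top le_top (map_commutator_eq _ ((QuotientGroup.mk' K).comp Ψ) ▸
      Subgroup.mem_map_of_mem _ (hk z.2))

open H40 in
/-- stability under the Borel subgroup and the fundamental reflections suffices -/
theorem good_tw {A Φ I : Type*} [Group A] [Finite Φ] (T : Tw A Φ I) {E : Type*} [Group E] (π : E →* A)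
    (hc : π.ker ≤ Subgroup.center E) (hr : π.range = T.U ⊓ T.Fix) (hH : ∀ h ∈ T.H, h ∈ T.Fix → Lift π h Set.univ)
    (hn : ∀ j, Lift π (T.n j) (T.Up j)) {g : A} (hg : g ∈ T.Fix) : Good π g := by
  obtain ⟨u, hu, huf, m, hm, hmf, v, hv, hvf, -, rfl⟩ := T.bruhat_fix hg
  refine Good.bruhat hc (hr ▸ ⟨hu, huf⟩) ?_ (hr ▸ ⟨hv, hvf⟩)
  refine T.N_fix_ind (p := Good π) (fun h a b => (hH h a b).mono fun _ _ => trivial) ?_ hm hmf
  intro m hm hmf ih j hj
  refine (hn j).comp ih fun e he => ⟨?_, by simpa only [Set.mem_ofPred_eq, mul_assoc, mul_inv_rev] using he⟩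
  have h1 : π e ∈ T.U ⊓ T.Fix := hr ▸ ⟨e, rfl⟩
  have h2 : m * T.n j * π e * (m * T.n j)⁻¹ ∈ T.U := (hr ▸ (he : _ ∈ π.range) : _ ∈ T.U ⊓ T.Fix).1
  obtain ⟨y, hy, -, x, hx, hxf, e1⟩ := T.U_decomp_fix j h1.1 h1.2
  obtain ⟨u, hu, -, k, hk, -, -, u', hu', -, e2⟩ := T.rank_one hx hxf
  have h3 := T.bruhat_uniq _ (mul_mem (T.Up_le j (T.n_conj_Up hy)) hu) _ (T.conj_XS hm (t := {r | T.pos r}) hj hu')
    1 (one_mem _) _ h2 _ (mul_mem hk (inv_mem hm)) _ (inv_mem hm) (by
      rw [e1, show x = (T.n j)⁻¹ * (u * k * u') * T.n j by rw [← e2]; group]; group)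
  have h4 : k ∈ T.H := by
    convert inv_mem (T.H_conj (inv_mem hm) h3) using 1
    group
  have h5 := T.B_inf_V (e2 ▸ mul_mem (mul_mem (Subgroup.mem_sup_left hu) (Subgroup.mem_sup_right h4))
    (Subgroup.mem_sup_left (T.XJ_le j hu'))) (T.n_conj_XJ hx)
  rw [e1, show x = 1 by simpa [mul_inv_eq_one] using h5, mul_one]
  exact hy

open H40 in
theorem lb_tw {A : Type u} {Φ I : Type*} [Group A] [Finite A] [Finite Φ] (T : Tw A Φ I) {E : Type*} [Group E]
    [Finite E] (π : E →* A) (hc : π.ker ≤ Subgroup.center E) (hk : π.ker ≤ commutator E)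
    (hr : π.range = T.U ⊓ T.Fix) (hco : (Nat.card π.ker).Coprime ((T.U ⊓ T.Fix).subgroupOf T.Fix).index)
    (hH : ∀ h ∈ T.H, h ∈ T.Fix → Lift π h Set.univ) (hn : ∀ j, Lift π (T.n j) (T.Up j)) :
    LB T.Fix (Nat.card π.ker) := by
  let π' : E →* T.Fix := π.codRestrict _ fun e => (hr.le ⟨e, rfl⟩).2
  have h1 : π'.ker = π.ker := π.ker_codRestrict _ _
  have h2 : π'.range = (T.U ⊓ T.Fix).subgroupOf T.Fix := by
    ext x
    rw [Subgroup.mem_subgroupOf, ← hr]
    exact exists_congr fun e => Subtype.ext_iff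
  rw [← h1] at hc hk hco ⊢
  refine lb_of_good π' hc hk (h2 ▸ hco) fun g => ?_
  obtain ⟨φ, a1, a2, a3⟩ := good_tw T π (h1 ▸ hc) hr hH hn g.2
  have h3 : ∀ x, g * π' x * g⁻¹ ∈ π'.range → g.1 * π x * g.1⁻¹ ∈ π.range := fun x ⟨e, he⟩ =>
    ⟨e, congrArg Subtype.val he⟩
  exact ⟨φ, fun x hx => Subtype.ext (a1 x (h3 x hx)), fun x y hx hy => a2 x y (h3 x hx) (h3 y hy), h1 ▸ a3⟩

end Cfsg.Agent.H80M
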