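/-
Upper bound for the 2-part of a Schur multiplier: the tails of a polycyclic presentation of a Sylow subgroup of the
covering group are eliminated one by one.
-/
import Cfsg.Agent.H80M.Pc

set_option autoImplicit false

namespace Cfsg.Agent.H80M

open H14 (force force_eq allN allN_iff allL allL_iff beq_iff ble_iff)
open H63 (nf map_nf nf_zero' pcS mem_pcS shl_one PB nf_mul_center mem_of_pow_coprime pow_index_mem)
open scoped IsMulCommutative

universe u

/-- the indices of relations -/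
def Valid (N F : ℕ) (dom : ℕ → ℕ) (g l : ℕ) : Prop :=
  l < N ∧ (l ≤ g ∧ g < N ∨ N ≤ g ∧ g < N + F ∧ (dom g).testBit l = true)

instance decValid (N F : ℕ) (dom : ℕ → ℕ) (g l : ℕ) : Decidable (Valid N F dom g l) :=
  inferInstanceAs (Decidable (_ ∧ _))

/-- the tail of a relation -/
noncomputable def RT {Γ : Type*} [Group Γ] (N : ℕ) (tw : ℕ → ℕ → ℕ) (L γ : ℕ → Γ) (g l : ℕ) : Γ :=
  (nf 2 N L (tw g l))⁻¹ * if g < N then lhs L g l else γ g * L l * (γ g)⁻¹

theorem map_RT {Γ Δ : Type*} [Group Γ] [Group Δ] (f : Γ →* Δ) (N : ℕ) (tw : ℕ → ℕ → ℕ) (L γ : ℕ → Γ) (g l : ℕ) :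
    f (RT N tw L γ g l) = RT N tw (fun i => f (L i)) (fun i => f (γ i)) g l := by
  unfold RT; split_ifs <;> simp [map_nf, map_lhs]

theorem RT_lt {Γ : Type*} [Group Γ] {N : ℕ} (tw : ℕ → ℕ → ℕ) (L γ : ℕ → Γ) {g : ℕ} (l : ℕ) (h : g < N) :
    lhs L g l = nf 2 N L (tw g l) * RT N tw L γ g l := by rw [RT, if_pos h, mul_inv_cancel_left]

/-- the code of the tail of a relation -/
def ttU (N g l : ℕ) : ℕ := Nat.shiftLeft (nat_lit 1) (Nat.add (Nat.mul g N) l)

/-- keep the tails if the words agree -/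
noncomputable def cut (N M D : ℕ) : ℕ :=
  force D fun D => Bool.rec (nat_lit 0) (Nat.shiftRight D N) (Nat.beq (Nat.mod D M) (nat_lit 0))

/-- a test; its value codes a trivial product of tails -/
noncomputable def testU (N M F : ℕ) (tw : ℕ → ℕ → ℕ) (dom : ℕ → ℕ) (g i j : ℕ) : ℕ :=
  Bool.rec (Bool.rec (nat_lit 0) (cut N M (Bool.rec (fixT N tw (ttU N) g) (sqT N tw (ttU N) g j) (Nat.blt j g)))
      (Nat.blt g N))
    (cut N M (homT N tw (ttU N) (tw g) (ttU N g) i j (tw i j) (ttU N i j)))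
    (Nat.ble j i && (Nat.blt i g && (Nat.blt g N || (Nat.blt i N && (Nat.blt g (Nat.add N F) &&
      ((dom g).testBit i && ((dom g).testBit j && Nat.beq (Nat.land (tw i j) (dom g)) (tw i j))))))))

/-- sum of tests -/
noncomputable def xs (t : ℕ → ℕ → ℕ → ℕ) (l : List (ℕ × ℕ × ℕ)) : ℕ :=
  List.rec (nat_lit 0) (fun x _ ih => Nat.xor (t x.1 x.2.1 x.2.2) ih) l

/-- eliminate tails -/
noncomputable def run (t : ℕ → ℕ → ℕ → ℕ) (l : List (ℕ × List (ℕ × ℕ × ℕ))) : ℕ → ℕ :=
  List.rec (fun Z => Z) (fun x _ ih Z => force (xs t x.2) fun D => force (Nat.shiftLeft (nat_lit 1) x.1) fun P =>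
    force (Bool.rec Z (Nat.lor Z P) (Nat.beq (Nat.xor D (Nat.land D Z)) P)) ih) l

section
variable {Γ : Type*} [Group Γ] {N F : ℕ} {tw : ℕ → ℕ → ℕ} {dom : ℕ → ℕ} {L γ : ℕ → Γ}
  (hlt : ∀ i < N, ∀ j ≤ i, tw i j < 2 ^ i) (hF : ∀ g < N + F, ∀ l < N, tw g l < 2 ^ N)
  (hK : ∀ g l, Valid N F dom g l → RT N tw L γ g l ∈ Subgroup.center Γ ∧ RT N tw L γ g l * RT N tw L γ g l = 1)

/-- the tails -/
noncomputable def zz (t : ℕ) : Subgroup.center Γ :=
  if h : Valid N F dom (t / N) (t % N) then ⟨_, (hK _ _ h).1⟩ else 1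

theorem zz_sq (t : ℕ) : zz hK t * zz hK t = 1 := by
  unfold zz; split_ifs with h
  exacts [Subtype.ext (hK _ _ h).2, one_mul _]

theorem zz_eq {g l : ℕ} (h : Valid N F dom g l) : zz hK (g * N + l) = RT N tw L γ g l := by
  have h1 : (g * N + l) / N = g := by
    rw [add_comm, Nat.add_mul_div_right _ _ (by have := h.1; omega), Nat.div_eq_of_lt h.1, zero_add]
  have h2 : (g * N + l) % N = l := by rw [add_comm, Nat.add_mul_mod_self_right, Nat.mod_eq_of_lt h.1]
  rw [zz, dif_pos (by rwa [h1, h2])]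
  simp only [h1, h2]

/-- products of tails -/
noncomputable def evz (V : ℕ) : Subgroup.center Γ := nf 2 ((N + F) * N) (zz hK) V

theorem evz_pow (t : ℕ) : evz hK (2 ^ t) = 1 → zz hK t = 1 := fun h => by
  by_cases h1 : t < (N + F) * N
  · rwa [evz, nf_two_pow _ h1] at h
  · refine dif_neg fun h2 => h1 ?_
    have h3 := h2.1
    rw [← Nat.div_lt_iff_lt_mul (by omega)]
    rcases h2.2 with h | h <;> omega

theorem evz_tt {g l : ℕ} (h : Valid N F dom g l) : evz hK (ttU N g l) = RT N tw L γ g l := by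
  rw [← zz_eq hK h, ttU, shl_one, evz, nf_two_pow]
  · rfl
  · have : g + 1 ≤ N + F := by rcases h.2 with h | h <;> omega
    have := h.1
    change g * N + l < _
    nlinarith

/-- the context of a central extension -/
noncomputable def cxU : Cx Γ N N tw (ttU N) where
  s := L
  ev V := evz hK V
  cen V := H63.Ctx.comm _
  xor V W := congrArg Subtype.val (nf_xor _ (zz_sq hK) V W)
  hd := le_rfl
  lt := hlt
  rel i hi j hj := by rw [evz_tt hK ⟨by omega, Or.inl ⟨hj, hi⟩⟩]; exact RT_lt _ _ _ _ hi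

theorem evz_cut {D : ℕ} (h : D % 2 ^ N = 0 → (evz hK (D / 2 ^ N) : Γ) = 1) : evz hK (cut N (2 ^ N) D) = 1 := by
  rw [cut, force_eq]
  cases h1 : Nat.beq (Nat.mod D (2 ^ N)) (nat_lit 0) with
  | false => exact nf_zero' _ _ _
  | true =>
    have e : Nat.shiftRight D N = D / 2 ^ N := Nat.shiftRight_eq_div_pow D N
    exact Subtype.ext (e ▸ h (beq_iff.1 h1) :)

include hlt hF in
theorem evz_test (g i j : ℕ) : evz hK (testU N (2 ^ N) F tw dom g i j) = 1 := by
  let C := cxU hlt hK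
  have hc : ∀ (x : Γ) (V : ℕ), MulAut.conj x (C.ev V) = C.ev V := fun x V => by
    rw [MulAut.conj_apply, ← C.cen, mul_inv_cancel_right]
  have him : ∀ l < g, g < N → C.im (tw g) (ttU N g) l = MulAut.conj (L g)⁻¹ (L l) := fun l hl hg =>
    (C.rel g hg l hl.le).symm.trans (by rw [lhs, if_neg hl.ne, MulAut.conj_apply, inv_inv]; rfl)
  have hnf : ∀ l ≤ g, g < N → nf 2 N (C.im (tw g) (ttU N g)) (tw g l) = MulAut.conj (L g)⁻¹ (nf 2 N L (tw g l)) :=
    fun l hl hg => (nf_lt _ (hlt g hg l hl) fun l hl => him l hl hg).trans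
      (map_nf (MulAut.conj (L g)⁻¹).toMonoidHom _ _ _ _).symm
  unfold testU
  generalize hb : (Nat.ble j i && _) = b
  cases b with
  | false =>
    cases h1 : Nat.blt g N with
    | false => exact nf_zero' _ _ _
    | true =>
      have hg : g < N := Nat.blt_eq.mp h1
      have h3 : C.im (tw g) (ttU N g) g = L g * L g := (C.rel g hg g le_rfl).symm.trans (if_pos rfl)
      refine evz_cut hK fun h0 => ?_
      cases h2 : Nat.blt j g with
      | false =>
        rw [h2] at h0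
        have := C.fixT_spec hg.le (hlt g hg) h0
        have h4 : MulAut.conj (L g)⁻¹ (nf 2 N L (tw g g)) = nf 2 N L (tw g g) :=
          mul_right_cancel (b := C.ev (ttU N g g)) (by
            rw [← hc (L g)⁻¹, ← map_mul, hc]
            exact (congrArg _ h3).trans (Eq.trans (by simp) h3.symm))
        rw [hnf g le_rfl hg, h4] at this
        exact left_eq_mul.1 this
      | true =>
        rw [h2] at h0
        have hj : j < g := Nat.blt_eq.mp h2
        have := C.sqT_spec hg.le (hlt g hg) hj h0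
        rw [hnf j hj.le hg, ← hc (L g)⁻¹, ← map_mul, show nf 2 N L (tw g j) * _ = _ from him j hj hg, h3] at this
        exact left_eq_mul.1 (Eq.trans (by simp [mul_assoc]; rfl) this)
  | true =>
    simp only [Bool.and_eq_true, Bool.or_eq_true, ble_iff, Nat.blt_eq, beq_iff] at hb
    obtain ⟨hj, hi, h1⟩ := hb
    have hiN : i < N := h1.elim hi.trans And.left
    have hg : g < N + F := h1.elim (fun h => by omega) fun h => h.2.1
    obtain ⟨x, h2, h3, h4⟩ : ∃ x : Γ, C.im (tw g) (ttU N g) i = MulAut.conj x (L i) ∧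
        C.im (tw g) (ttU N g) j = MulAut.conj x (L j) ∧
        ∀ l < N, (tw i j).testBit l = true → C.im (tw g) (ttU N g) l = MulAut.conj x (L l) := by
      by_cases h5 : g < N
      · refine ⟨_, him i hi h5, him j (by omega) h5, fun l _ hl => him l ?_ h5⟩
        by_contra hc
        rw [Nat.testBit_lt_two_pow ((hlt i hiN j hj).trans_le (Nat.pow_le_pow_right two_pos (by omega)))] at hl
        exact absurd hl (by simp)
      · obtain ⟨-, -, a, b, c⟩ := h1.resolve_left h5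
        have : ∀ l < N, (dom g).testBit l = true → C.im (tw g) (ttU N g) l = MulAut.conj (γ g) (L l) :=
          fun l hl hb => by
            change nf 2 N L _ * (evz hK _ : Γ) = _
            rw [evz_tt hK ⟨hl, Or.inr ⟨by omega, hg, hb⟩⟩, RT, if_neg h5, mul_inv_cancel_left]; rfl
        refine ⟨_, this i hiN a, this j (by omega) b, fun l hl hb => this l hl ?_⟩
        rw [← c] at hb
        exact (Bool.and_eq_true_iff.1 (Nat.testBit_and _ _ _ ▸ hb)).2
    refine evz_cut hK fun h0 => ?_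
    have := C.homT_spec (ttU N g) (ttU N i j) hiN.le (fun l hl => hF g hg l (by omega)) (hlt i hiN j hj)
      (hF g hg i hiN) (hF g hg j (by omega)) h0
    rw [nf_bits _ _ h4, show nf 2 N (fun l => MulAut.conj x (L l)) (tw i j) = MulAut.conj x (nf 2 N L (tw i j)) from
      (map_nf (MulAut.conj x).toMonoidHom _ _ _ _).symm, ← hc x (ttU N i j)] at this
    have h5 := congrArg (MulAut.conj x) (C.rel i hiN j hj)
    rw [map_mul, show MulAut.conj x (lhs C.s i j) = lhs (C.im (tw g) (ttU N g)) i j by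
      unfold lhs; rw [h2, h3]; split_ifs <;> simp only [map_mul, map_inv] <;> rfl] at h5
    exact left_eq_mul.1 (h5.symm.trans this)

include hlt hF hK in
theorem elim (l : List (ℕ × List (ℕ × ℕ × ℕ))) {Z : ℕ}
    (h : ∀ g i, Valid N F dom g i → Z.testBit (g * N + i) = true → RT N tw L γ g i = 1) :
    ∀ g i, Valid N F dom g i → (run (testU N (2 ^ N) F tw dom) l Z).testBit (g * N + i) = true →
      RT N tw L γ g i = 1 := by
  suffices ∀ Z, (∀ t, Z.testBit t = true → zz hK t = 1) →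
      ∀ t, (run (testU N (2 ^ N) F tw dom) l Z).testBit t = true → zz hK t = 1 from fun g i hv hb => by
    rw [← zz_eq hK hv, this Z (fun t ht => ?_) _ hb]; rfl
    unfold zz
    split_ifs with h1
    exacts [Subtype.ext (h _ _ h1 (by rwa [Nat.div_add_mod'])), rfl]
  have hx : ∀ V W, evz hK (V ^^^ W) = evz hK V * evz hK W := nf_xor _ (zz_sq hK)
  induction l with
  | nil => exact fun _ h => h
  | cons x l ih =>
    intro Z hZ
    have e : ∀ t, run t (x :: l) Z = force (xs t x.2) fun D => force (Nat.shiftLeft (nat_lit 1) x.1) fun P =>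
      force (Bool.rec Z (Nat.lor Z P) (Nat.beq (Nat.xor D (Nat.land D Z)) P)) (run t l) := fun _ => rfl
    rw [e, force_eq, force_eq, force_eq, shl_one]
    refine ih _ ?_
    have h1 : evz hK (xs (testU N (2 ^ N) F tw dom) x.2) = 1 := by
      induction x.2 with
      | nil => exact nf_zero' _ _ _
      | cons y m ih => exact (hx _ _).trans (by rw [evz_test hlt hF hK]; exact (one_mul _).trans ih)
    generalize xs (testU N (2 ^ N) F tw dom) x.2 = D at *
    cases hb : Nat.beq (Nat.xor D (Nat.land D Z)) (2 ^ x.1) with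
    | false => exact hZ
    | true =>
      intro t ht
      rcases Bool.or_eq_true_iff.1 (Nat.testBit_or _ _ _ ▸ ht) with h2 | h2
      · exact hZ t h2
      · rw [Nat.testBit_two_pow, decide_eq_true_eq] at h2
        refine evz_pow hK t ?_
        rw [← h2, ← beq_iff.1 hb]
        exact (hx _ _).trans (by
          rw [h1, one_mul]
          exact nf_mem_bits ⊥ _ _ fun l _ hl => hZ l (Bool.and_eq_true_iff.1 (Nat.testBit_and _ _ _ ▸ hl)).2)

/-- the designated relation `(i, j)` is made exact by changing the lifts -/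
noncomputable def desOK (N : ℕ) (tw : ℕ → ℕ → ℕ) (M : ℕ → ℕ) (i j : ℕ) : Bool :=
  Nat.beq (lp (fun R l => Nat.xor R (M l)) (Nat.xor (tw i j) (Bool.rec (Nat.shiftLeft (nat_lit 1) j) (nat_lit 0)
    (Nat.beq j i))) (nat_lit 0)) (ttU N i j)

include hlt in
theorem des_spec (M : ℕ → ℕ) {i j : ℕ} (hi : i < N) (hj : j ≤ i) (h : desOK N tw M i j = true) :
    RT N tw (fun l => L l * evz hK (M l)) γ i j = 1 := by
  have hx : ∀ V W, evz hK (V ^^^ W) = evz hK V * evz hK W := nf_xor _ (zz_sq hK)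
  have h0 : evz hK 0 = 1 := nf_zero' _ _ _
  have hq : ∀ V, evz hK V * evz hK V = 1 := fun V => by rw [← hx, Nat.xor_self, h0]
  have h1 := (hlt i hi j hj).trans (Nat.pow_lt_pow_right one_lt_two hi)
  have h2 := congrArg (evz hK) (beq_iff.1 h)
  replace h2 := (lp_spec (g := fun R l => Nat.xor R (M l)) (evz hK) (fun l => evz hK (M l)) le_rfl
    (fun R l _ => hx R (M l)) (Nat.xor_lt_two_pow h1 (by
      cases Nat.beq j i
      · exact shl_one j ▸ Nat.pow_lt_pow_right one_lt_two (by omega)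
      · exact Nat.pow_pos two_pos)) _).symm.trans h2
  replace h2 := congrArg Subtype.val (((one_mul _).symm.trans (congrArg (· * _) h0.symm)).trans h2)
  rw [evz_tt hK ⟨by omega, Or.inl ⟨hj, hi⟩⟩, nf_xor _ fun l => hq (M l)] at h2
  rw [RT, if_pos hi, nf_mul_center, inv_mul_eq_one]
  have h3 := RT_lt tw L γ j hi
  rw [← h2] at h3
  unfold lhs at h3 ⊢
  split_ifs at h3 ⊢ with e
  · rw [e, beq_iff.2 rfl, show Bool.rec (motive := fun _ => ℕ) (Nat.shiftLeft (nat_lit 1) i) (nat_lit 0) true = 0 from rfl,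
      nf_zero', mul_one] at h3
    rw [e, ← h3, mul_assoc, ← mul_assoc (evz hK _ : Γ), H63.Ctx.comm, mul_assoc, ← Subgroup.coe_mul, hq]
    simp
  · rw [show Nat.beq j i = false from Bool.eq_false_iff.2 fun h => e (beq_iff.1 h),
      show Bool.rec (motive := fun _ => ℕ) (Nat.shiftLeft (nat_lit 1) j) (nat_lit 0) false = 2 ^ j from shl_one j,
      nf_two_pow _ (by omega)] at h3
    have h4 : (L i * evz hK (M i))⁻¹ * (L j * evz hK (M j)) * (L i * evz hK (M i)) =
        (L i)⁻¹ * L j * L i * evz hK (M j) := by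
      rw [mul_inv_rev, mul_assoc, mul_assoc, ← Subgroup.coe_inv, H63.Ctx.comm, mul_assoc (L j),
        H63.Ctx.comm (evz hK (M j))]
      simp only [mul_assoc, ← Subgroup.coe_mul, mul_comm (evz hK (M j)), mul_inv_cancel_left]
    rw [h4, h3, mul_assoc, ← Subgroup.coe_mul, mul_assoc, hq, mul_one]

end

/-- The certificate bounds the 2-part of the multiplier. -/
theorem pb_of {A : Type u} [Group A] (G : Subgroup A) {N F r : ℕ} {tw : ℕ → ℕ → ℕ} {dom : ℕ → ℕ} {s γ : ℕ → A}
    (hlt : ∀ i < N, ∀ j ≤ i, tw i j < 2 ^ i) (hF : ∀ g < N + F, ∀ l < N, tw g l < 2 ^ N) (hr : r ≤ N)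
    (hz : ∀ a < r, tw a a = 0 ∧ ∀ i < N, a < i → tw i a = 2 ^ a)
    (hs : ∀ i, s i ∈ G) (hγ : ∀ g, γ g ∈ G) (hrel : ∀ g l, Valid N F dom g l → RT N tw s γ g l = 1)
    (h1 : ∀ a < r, s a = 1) (hfree : ∀ i < N, r ≤ i → s i ∉ pcS s ⊥ i)
    (hodd : ¬ 2 ∣ ((pcS s ⊥ N).subgroupOf G).index) (M : ℕ → ℕ) (Z₁ Z₂ : ℕ)
    (l₁ l₂ : List (ℕ × List (ℕ × ℕ × ℕ)))
    (c₁ : ∀ g < N + F, ∀ l < N, Z₁.testBit (g * N + l) = true → g < N ∧ (l < r ∨ desOK N tw M g l = true))
    (c₂ : ∀ i < N, ∀ j ≤ i, (run (testU N (2 ^ N) F tw dom) l₁ Z₁).testBit (i * N + j) = true)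
    (c₃ : ∀ g < N, ∀ l < N, Z₂.testBit (g * N + l) = true → l < r ∧ l < g)
    (c₄ : ∀ a < r, (run (testU N (2 ^ N) 0 tw dom) l₂ Z₂).testBit (a * N + a) = true) :
    PB 2 G (List.replicate r 2) := by
  refine PB.of_exp (e := 1) Nat.prime_two (by simp) fun Γ _ _ σ hσ hexp => ?_
  have hc : ∀ z ∈ σ.ker, ∀ x, Commute x z := fun z hz => Subgroup.mem_center_iff.1 (hσ.2.1 hz)
  let K := Subgroup.closure {x | ∃ z ∈ σ.ker, z * z = x}
  have hK : ∀ x ∈ K, x ∈ σ.ker ∧ x * x = 1 := fun x hx => by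
    induction hx using Subgroup.closure_induction with
    | mem x hx =>
      obtain ⟨z, hz, rfl⟩ := hx
      exact ⟨mul_mem hz hz, by rw [← hexp z hz]; norm_num [pow_succ, mul_assoc]⟩
    | one => simp
    | mul x y _ _ hx hy => exact ⟨mul_mem hx.1 hy.1, by rw [(hc x hx.1 y).mul_mul_mul_comm, hx.2, hy.2, one_mul]⟩
    | inv x _ hx => exact ⟨inv_mem hx.1, by rw [← mul_inv_rev, hx.2, inv_one]⟩
  have hK' : K ≤ σ.ker := fun x hx => (hK x hx).1
  have : K.Normal := H81.normal_of_le_center (hK'.trans hσ.2.1)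
  let θ := G.subtype.comp σ
  have hθ : ∀ x, θ x = 1 ↔ x ∈ σ.ker := fun x => by simp [θ]
  let τ : Γ ⧸ K →* A := QuotientGroup.lift K θ fun x hx => (hθ x).2 (hK' hx)
  have hτ : ∀ y, τ y = 1 → y ∈ Subgroup.center _ ∧ y * y = 1 := fun y hy => by
    obtain ⟨x, rfl⟩ := QuotientGroup.mk_surjective y
    refine ⟨Subgroup.mem_center_iff.2 fun v => ?_, (QuotientGroup.eq_one_iff (x * x)).2
      (Subgroup.subset_closure ⟨x, (hθ x).1 hy, rfl⟩)⟩
    obtain ⟨v, rfl⟩ := QuotientGroup.mk_surjective v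
    exact congrArg QuotientGroup.mk (hc x ((hθ x).1 hy) v).eq
  have hl : ∀ a ∈ G, ∃ y, τ y = a := fun a ha => by
    obtain ⟨x, hx⟩ := hσ.1 ⟨a, ha⟩
    exact ⟨x, congrArg Subtype.val hx⟩
  choose L₀ hL₀ using fun i => hl _ (hs i)
  choose γ₀ hγ₀ using fun i => hl _ (hγ i)
  have h2 : ∀ L : ℕ → Γ ⧸ K, (∀ i, τ (L i) = s i) → ∀ g l, Valid N F dom g l → τ (RT N tw L γ₀ g l) = 1 :=
    fun L hL g l h => by rw [map_RT, funext hL, funext hγ₀, hrel g l h]
  have k₀ := fun g l h => hτ _ (h2 L₀ hL₀ g l h)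
  have h3 : ∀ i, τ (L₀ i * evz k₀ (M i)) = s i := fun i => by
    have : evz k₀ (M i) ∈ τ.ker.subgroupOf _ := H63.nf_mem _ _ _ _ (fun t => by
      unfold zz; split_ifs with h
      exacts [h2 L₀ hL₀ _ _ h, one_mem _]) _
    rw [map_mul, hL₀, show τ (evz k₀ (M i)) = 1 from this, mul_one]
  have h4 : ∀ {Δ : Type u} [Group Δ] (L γ : ℕ → Δ), ∀ g < N, ∀ l < r, l < g → L l ∈ Subgroup.center Δ →
      RT N tw L γ g l = 1 := fun L γ g hg l hl hlg h => by
    rw [RT, if_pos hg, lhs, if_neg hlg.ne, (hz l hl).2 g hg hlg, nf_two_pow _ (by omega),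
      Subgroup.mem_center_iff.1 h]
    simp
  have h5 := elim hlt hF (fun g l h => hτ _ (h2 _ h3 g l h)) l₁ (Z := Z₁) fun g l hv hb => by
    obtain ⟨a, b⟩ := c₁ g (by rcases hv.2 with h | h <;> omega) l hv.1 hb
    have c : l ≤ g := by rcases hv.2 with h | h <;> omega
    refine b.elim (fun b' => ?_) (des_spec hlt k₀ M a c)
    have := hτ _ ((h3 l).trans (h1 l b'))
    rcases c.lt_or_eq with c | rfl
    · exact h4 _ _ g a l b' c this.1
    · rw [RT, if_pos a, lhs, if_pos rfl, (hz l b').1, nf_zero', inv_one, one_mul]; exact this.2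
  choose L hL using fun i => QuotientGroup.mk'_surjective K (L₀ i * evz k₀ (M i))
  have h6 : ∀ i, θ (L i) = s i := fun i => (congrArg τ (hL i)).trans (h3 i)
  have h7 : ∀ i < N, ∀ j ≤ i, RT N tw L 1 i j ∈ K := fun i hi j hj => by
    rw [← QuotientGroup.eq_one_iff, ← h5 i j ⟨by omega, Or.inl ⟨hj, hi⟩⟩ (c₂ i hi j hj), ← funext hL,
      ← QuotientGroup.mk'_apply, map_RT, RT, RT, if_pos hi, if_pos hi]
  have h8 : ∀ a < r, L a ∈ σ.ker := fun a ha => (hθ _).1 ((h6 a).trans (h1 a ha))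
  have h9 := elim (F := 0) (dom := dom) (L := L) (γ := 1) hlt (fun g hg => hF g (by omega)) (fun g l h =>
    have := hK _ (h7 g (by rcases h.2 with h | h <;> omega) l (by rcases h.2 with h | h <;> omega))
    ⟨hσ.2.1 this.1, this.2⟩) l₂ (Z := Z₂) fun g l hv hb => by
      have a : g < N := by rcases hv.2 with h | h <;> omega
      obtain ⟨b, c⟩ := c₃ g a l hv.1 hb
      exact h4 _ _ g a l b c (hσ.2.1 (h8 l b))
  refine ⟨(List.range r).map L, ?_, ?_⟩
  · rw [List.forall₂_map_left_iff, show List.replicate r 2 = (List.range r).map fun _ => 2 by simp,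
      List.forall₂_map_right_iff, List.forall₂_same]
    intro a ha
    rw [List.mem_range] at ha
    have := h9 a a ⟨by omega, Or.inl ⟨le_rfl, by omega⟩⟩ (c₄ a ha)
    rw [RT, if_pos (by omega), lhs, if_pos rfl, (hz a ha).1, nf_zero', inv_one, one_mul] at this
    exact ⟨h8 a ha, (pow_two _).trans this⟩
  set W := Subgroup.closure {u | u ∈ (List.range r).map L}
  have hW : W ≤ σ.ker := (Subgroup.closure_le _).2 fun u hu => by
    obtain ⟨a, ha, rfl⟩ := List.mem_map.1 hu
    exact h8 a (List.mem_range.1 ha)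
  have h10 : σ.ker ≤ W ⊔ K := fun z hz => by
    have a1 := pow_index_mem hσ.1 hσ.2.1 (pcS L K N) hz (hσ.2.2 hz)
    have a2 : (pcS s ⊥ N).subgroupOf G ≤ (pcS L K N).map σ := fun x hx => by
      obtain ⟨y, hy, e⟩ := pcS_le (K := (pcS L K N).map θ) (fun j hj => ⟨_, mem_pcS hj, h6 j⟩) bot_le hx
      exact ⟨y, hy, Subtype.ext e⟩
    have a3 : z ∈ pcS L K N := mem_of_pow_coprime (Nat.Coprime.pow_left 2 ((Nat.prime_two.coprime_iff_not_dvd).2
      fun h => hodd (h.trans (Subgroup.index_dvd_of_le a2)))) (by rw [hexp z hz]; exact one_mem _)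
      (Subgroup.commutator_le.2 (fun a ha b hb => mul_mem (mul_mem (mul_mem ha hb) (inv_mem ha)) (inv_mem hb)) a1)
    refine PC.ker_ind (fun i hi j hj => ?_) (hK'.trans hσ.2.1) θ le_sup_right
      (fun x hx => (hθ x).2 (sup_le hW hK' hx)) (fun i hi => ?_) a3 ((hθ z).2 hz)
    · rw [RT_lt tw L 1 j hi]
      exact mul_mem (nf_mem_pcS (hlt i hi j hj)) (Subgroup.mem_sup_right (h7 i hi j hj))
    · by_cases h : i < r
      · exact Or.inl (Subgroup.mem_sup_left (Subgroup.subset_closure (List.mem_map_of_mem (List.mem_range.2 h))))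
      · rw [funext h6, h6]; exact Or.inr (hfree i hi (by omega))
  refine h10.trans (sup_le le_rfl ((Subgroup.closure_le _).2 ?_))
  rintro _ ⟨z, hz, rfl⟩
  obtain ⟨w, hw, k, hk, rfl⟩ := Subgroup.mem_sup_of_normal_right.1 (h10 hz)
  rw [(hc k (hK' hk) w).symm.mul_mul_mul_comm, (hK k hk).2, mul_one]
  exact mul_mem hw hw

end Cfsg.Agent.H80M
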