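/-
Lower bound for the 2-part of a Schur multiplier from a consistent presentation of a central extension of the
unipotent subgroup on which the fundamental reflections and the torus act.
-/
import Cfsg.Agent.H80M.UB
import Cfsg.Agent.H80M.Tr

set_option autoImplicit false

namespace Cfsg.Agent.H80M

open H14 (force force_eq allN allN_iff allL allL_iff beq_iff ble_iff)
open H63 (nf map_nf nf_zero' pcS mem_pcS LB)

universe u

theorem PC.card_le {Γ : Type*} [Group Γ] [Finite Γ] {t : ℕ → Γ} {n : ℕ} (h : PC t ⊥ n) {m : ℕ} (hm : m ≤ n) :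
    Nat.card (pcS t ⊥ m) ≤ 2 ^ m := by
  induction m with
  | zero => simp [pcS]
  | succ m ih =>
    have := h.card_succ bot_le (show m < n by omega)
    have := ih (by omega)
    omega

theorem lift_of_graph {E A : Type*} [Group E] [Group A] (π : E →* A) (g : A) (S : Set A) (P : Subgroup (E × E))
    (h1 : ∀ p ∈ P, p.1 = 1 → p = 1) (h2 : ∀ x, π x ∈ S → ∃ y, (x, y) ∈ P)
    (h3 : ∀ p ∈ P, π p.2 = g * π p.1 * g⁻¹) (h4 : ∀ z ∈ π.ker, (z, z) ∈ P) : Lift π g S := by
  classical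
  let φ : E → E := fun x => if h : ∃ y, (x, y) ∈ P then h.choose else 1
  have h5 : ∀ x, (∃ y, (x, y) ∈ P) → (x, φ x) ∈ P := fun x h => by
    simp only [φ, dif_pos h]; exact h.choose_spec
  have h6 : ∀ x y, (x, y) ∈ P → φ x = y := fun x y h =>
    inv_mul_eq_one.1 (congrArg Prod.snd (h1 _ (mul_mem (inv_mem (h5 x ⟨y, h⟩)) h) (by simp)))
  exact ⟨φ, fun x hx => h3 _ (h5 x (h2 x hx)), fun x y hx hy => h6 _ _ (mul_mem (h5 x (h2 x hx)) (h5 y (h2 y hy))),
    fun z hz => h6 _ _ (h4 z hz)⟩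

/-- the words `fw` define a homomorphism on the subgroup generated by the letters in `d` -/
noncomputable def liftOK (N M : ℕ) (tw : ℕ → ℕ → ℕ) (d : ℕ) (fw : ℕ → ℕ) (i : ℕ) : Bool :=
  allN (Nat.succ i) fun j => !(d.testBit i && d.testBit j) || (Nat.beq (Nat.land (tw i j) d) (tw i j) &&
    Nat.beq (Nat.mod (homT N tw (fun _ _ => nat_lit 0) fw (fun _ => nat_lit 0) i j (tw i j) (nat_lit 0)) M)
      (nat_lit 0))

theorem lift_pc {E A : Type*} [Group E] [Group A] (π : E →* A) {N r : ℕ} {tw : ℕ → ℕ → ℕ} {t : ℕ → E}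
    (hlt : ∀ i < N, ∀ j ≤ i, tw i j < 2 ^ i) (ht : Rel N tw t N) (hf : ∀ i < N, t i ∉ pcS t ⊥ i) (hr : r ≤ N)
    (hk : π.ker ≤ pcS t ⊥ r) {d : ℕ} {fw : ℕ → ℕ} (hF : ∀ l < N, fw l < 2 ^ N)
    (h : ∀ i < N, liftOK N (2 ^ N) tw d fw i = true) (hz : ∀ a < r, d.testBit a = true ∧ fw a = 2 ^ a) {g : A}
    (hg : ∀ l < N, d.testBit l = true → g * π (t l) * g⁻¹ = π (nf 2 N t (fw l))) {S : Set A}
    (hS : ∀ x, π x ∈ S → ∀ K : Subgroup E, (∀ l < N, d.testBit l = true → t l ∈ K) → x ∈ K) : Lift π g S := by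
  let u : ℕ → E × E := fun l => if d.testBit l = true then (t l, nf 2 N t (fw l)) else 1
  have e1 : ∀ l, d.testBit l = true → u l = (t l, nf 2 N t (fw l)) := fun l hl => if_pos hl
  have e2 : ∀ l, ¬ d.testBit l = true → u l = 1 := fun l hl => if_neg hl
  have hu : PC u ⊥ N := fun i hi j hj => by
    by_cases a : d.testBit i = true
    · by_cases b : d.testBit j = true
      · have h1 := allN_iff.1 (h i hi) j (Nat.lt_succ_of_le hj)
        simp only [a, b, Bool.and_self, Bool.not_true, Bool.false_or, Bool.and_eq_true, beq_iff] at h1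
        have h2 := (ht.cx le_rfl hlt).homT_spec (fw := fw) (fun _ => 0) 0 hi.le (fun l hl => hF l (by omega))
          (hlt i hi j hj) (hF i hi) (hF j (by omega)) h1.2
        rw [Rel.cx_im] at h2
        have h3 : ∀ l, (tw i j).testBit l = true → d.testBit l = true := fun l hl => by
          rw [← h1.1] at hl
          exact (Bool.and_eq_true_iff.1 (Nat.testBit_and _ _ _ ▸ hl)).2
        rw [show lhs u i j = nf 2 N u (tw i j) from Prod.ext ?_ ?_]
        · exact nf_mem_pcS (hlt i hi j hj)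
        · refine Eq.trans ?_ ((ht i hi j hj).trans ((nf_bits _ _ fun l _ hl => ?_).trans
            (map_nf (MonoidHom.fst E E) _ _ u _).symm))
          · unfold lhs; rw [e1 i a, e1 j b]; split_ifs <;> rfl
          · rw [e1 l (h3 l hl)]; rfl
        · refine Eq.trans ?_ (h2.trans (((mul_one _).trans (mul_one _)).trans ((nf_bits _ _ fun l _ hl => ?_).trans
            (map_nf (MonoidHom.snd E E) _ _ u _).symm)))
          · unfold lhs; rw [e1 i a, e1 j b]; split_ifs <;> rfl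
          · rw [e1 l (h3 l hl)]; rfl
      · rw [lhs, if_neg (by rintro rfl; exact b a), e2 j b, mul_one, inv_mul_cancel]; exact one_mem _
    · rw [lhs, e2 i a]
      split_ifs with e
      · simp
      · simpa using mem_pcS (W := ⊥) (t := u) (show j < i by omega)
  refine lift_of_graph π g S (pcS u ⊥ N) (fun p hp h1 => hu.ker_ind bot_le (MonoidHom.fst E E) le_rfl bot_le
    (fun i hi => ?_) hp h1) (fun x hx => ?_) (fun p hp => ?_) fun z hz' => ?_
  · by_cases a : d.testBit i = true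
    · refine Or.inr fun h1 => hf i hi ?_
      rw [e1 i a] at h1
      refine pcS_le (fun l hl => ?_) bot_le h1
      by_cases b : d.testBit l = true
      · rw [e1 l b]; exact mem_pcS hl
      · rw [e2 l b]; exact one_mem _
    · exact Or.inl (e2 i a)
  · obtain ⟨p, hp, rfl⟩ := hS x hx ((pcS u ⊥ N).map (MonoidHom.fst E E)) fun l hl b =>
      ⟨u l, mem_pcS hl, by rw [e1 l b]; rfl⟩
    exact ⟨p.2, hp⟩
  · refine pcS_le (K := (π.comp (MonoidHom.snd E E)).eqLocus
      ((MulAut.conj g).toMonoidHom.comp (π.comp (MonoidHom.fst E E)))) (fun l hl => ?_) bot_le hp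
    by_cases b : d.testBit l = true
    · rw [e1 l b]; exact (hg l hl b).symm
    · rw [e2 l b]; exact one_mem _
  · refine pcS_le (K := (pcS u ⊥ N).comap ((MonoidHom.id E).prod (MonoidHom.id E))) (fun a ha => ?_) bot_le (hk hz')
    have := mem_pcS (t := u) (W := ⊥) (show a < N by omega)
    rwa [e1 a (hz a ha).1, (hz a ha).2, nf_two_pow _ (by omega)] at this

open H40 in
theorem lb_pc {A : Type u} {Φ I : Type*} [Group A] [Finite A] [Finite Φ] (T : Tw A Φ I) {N F r : ℕ}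
    {tw : ℕ → ℕ → ℕ} {dom : ℕ → ℕ} {s γ : ℕ → A}
    (hlt : ∀ i < N, ∀ j ≤ i, tw i j < 2 ^ i) (hF : ∀ g < N + F, ∀ l < N, tw g l < 2 ^ N) (hr : r ≤ N)
    (hz : ∀ a < r, tw a a = 0 ∧ ∀ i < N, a < i → tw i a = 2 ^ a) (hlev : ∀ g < N, lev N (2 ^ N) tw g = true)
    (hrel : ∀ g l, Valid N F dom g l → RT N tw s γ g l = 1)
    (h1 : ∀ a < r, s a = 1) (hfree : ∀ i < N, r ≤ i → s i ∉ pcS s ⊥ i) (hU : pcS s ⊥ N = T.U ⊓ T.Fix)
    (hodd : ¬ 2 ∣ ((T.U ⊓ T.Fix).subgroupOf T.Fix).index)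
    (hl : ∀ g < N + F, N ≤ g → (∀ i < N, liftOK N (2 ^ N) tw (dom g) (tw g) i = true) ∧
      ∀ a < r, (dom g).testBit a = true ∧ tw g a = 2 ^ a)
    (hH : ∀ h ∈ T.H, h ∈ T.Fix → ∃ g < N + F, N ≤ g ∧ (∀ l < N, (dom g).testBit l = true) ∧ ∃ k : ℕ, h = γ g ^ k)
    (hn : ∀ j, ∃ g < N + F, N ≤ g ∧ T.n j = γ g ∧
      ∀ l < N, if (dom g).testBit l = true then s l ∈ T.Up j else s l ∈ T.XJ j)
    (hc : ∀ a < r, ∃ X < 2 ^ N, ∃ Y < 2 ^ N, mulS N tw (fun _ _ => 0) Y 0 X =
      mulS N tw (fun _ _ => 0) (2 ^ a) 0 (mulS N tw (fun _ _ => 0) X 0 Y)) : LB T.Fix (2 ^ r) := by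
  obtain ⟨E, _, _, t, a1, a2, a3⟩ := exists_pc hlt hlev
  have ht : PC t ⊥ N := a1.pc hlt
  have htop : ∀ x, x ∈ pcS t ⊥ N := fun x => a3 ▸ Subgroup.mem_top x
  obtain ⟨π, hπ⟩ := exists_hom hlt a1 a2 a3 (u := s) fun i hi j hj => by
    rw [RT_lt tw s γ j hi, hrel i j ⟨by omega, Or.inl ⟨hj, hi⟩⟩, mul_one]
  have b0 : ∀ i ≤ N, pcS (fun l => π (t l)) ⊥ i = pcS s ⊥ i := fun i hi => le_antisymm
    (pcS_le (fun l hl => hπ l (by omega) ▸ mem_pcS hl) bot_le)
    (pcS_le (fun l hl => hπ l (by omega) ▸ mem_pcS (t := fun l => π (t l)) hl) bot_le)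
  have b1 : pcS t ⊥ r ≤ π.ker := pcS_le (fun a ha => (hπ a (by omega)).trans (h1 a ha)) bot_le
  have b2 : π.ker ≤ pcS t ⊥ r := fun x hx => ht.ker_ind bot_le π bot_le b1 (fun i hi => (Nat.lt_or_ge i r).imp
    mem_pcS fun h => by rw [b0 i hi.le, hπ i hi]; exact hfree i hi h) (htop x) hx
  have b3 : Nat.card π.ker = 2 ^ r := by
    rw [le_antisymm b2 b1]
    refine le_antisymm (ht.card_le hr) ?_
    have := card_ge_of_free (t := t) (W := ⊥) (r := 0) (k := r) fun i _ hi => a2 i (by omega)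
    rw [zero_add] at this
    exact (Nat.le_mul_of_pos_right _ Nat.card_pos).trans this
  have b4 : π.range = T.U ⊓ T.Fix := by
    rw [← hU, ← b0 N le_rfl]
    exact le_antisymm (fun _ ⟨x, hx⟩ => hx ▸ pcS_le (K := (pcS (fun l => π (t l)) ⊥ N).comap π)
      (fun l hl => mem_pcS (t := fun l => π (t l)) hl) bot_le (htop x)) (pcS_le (fun l _ => ⟨_, rfl⟩) bot_le)
  have b5 : ∀ i < N, ∀ a < r, a < i → t i * t a = t a * t i := fun i hi a ha h => by
    have := a1 i hi a h.le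
    rw [lhs, if_neg h.ne, (hz a ha).2 i hi h, nf_two_pow _ (by omega), mul_assoc, inv_mul_eq_iff_eq_mul] at this
    exact this.symm
  have b6 : π.ker ≤ Subgroup.center E := b2.trans (pcS_le (fun a ha => Subgroup.mem_center_iff.2 fun x =>
    pcS_le (K := Subgroup.centralizer {t a}) (fun i hi => Subgroup.mem_centralizer_singleton_iff.2 (by
      rcases lt_trichotomy a i with h | rfl | h
      exacts [b5 i hi a ha h, rfl, (b5 a (by omega) i (by omega) h).symm])) bot_le (htop x) _ rfl |>.symm) bot_le)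
  have b7 : π.ker ≤ commutator E := b2.trans (pcS_le (fun a ha => by
    obtain ⟨X, hX, Y, hY, e⟩ := hc a ha
    let C := a1.cx le_rfl hlt
    have := congrArg C.val e
    rw [C.mulS_spec hY, C.mulS_spec (Nat.pow_lt_pow_right one_lt_two (by omega)), C.mulS_spec hX, C.val_word hX,
      C.val_word hY, C.ev_zero, mul_one, mul_one, mul_one, nf_two_pow _ (by omega)] at this
    have h2 := Subgroup.commutator_mem_commutator (Subgroup.mem_top (nf 2 N C.s X)⁻¹)
      (Subgroup.mem_top (nf 2 N C.s Y)⁻¹)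
    rwa [commutatorElement_def, inv_inv, inv_inv, mul_assoc, this, ← mul_inv_rev, inv_mul_cancel_left] at h2) bot_le)
  have b8 : ∀ g < N + F, N ≤ g → ∀ S : Set A, (∀ x, π x ∈ S → ∀ K : Subgroup E,
      (∀ l < N, (dom g).testBit l = true → t l ∈ K) → x ∈ K) → Lift π (γ g) S := fun g hg hg' S hS =>
    lift_pc π hlt a1 a2 hr b2 (hF g hg) (hl g hg hg').1 (hl g hg hg').2 (fun l hl hb => by
      have := hrel g l ⟨hl, Or.inr ⟨hg', hg, hb⟩⟩
      rw [RT, if_neg (by omega), inv_mul_eq_one] at this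
      rw [hπ l hl, ← this, map_nf]
      exact nf_lt _ (hF g hg l hl) fun l hl => (hπ l hl).symm) hS
  rw [← b3]
  refine lb_tw T π b6 b7 b4 (b3 ▸ Nat.Coprime.pow_left _ (Nat.prime_two.coprime_iff_not_dvd.2 hodd))
    (fun h hh hf => ?_) fun j => ?_
  · obtain ⟨g, c1, c2, c3, k, rfl⟩ := hH h hh hf
    have := b8 g c1 c2 Set.univ fun x _ K hK => pcS_le (fun l hl => hK l hl (c3 l hl)) bot_le (htop x)
    clear hh hf
    induction k with
    | zero => exact lift_range b6 (pow_zero (γ g) ▸ one_mem _)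
    | succ k ih => exact pow_succ (γ g) k ▸ this.comp ih fun _ _ => ⟨trivial, trivial⟩
  obtain ⟨g, c1, c2, c3, c4⟩ := hn j
  refine c3 ▸ b8 g c1 c2 _ fun x hx K hK => ?_
  let Q := (T.Up j).comap π
  have : Q.Normal := ⟨fun y hy e => by
    simpa [Q] using T.U_conj_Up (b4.le ⟨e, rfl⟩).1 hy⟩
  have d1 : ∀ l < N, (dom g).testBit l = true → t l ∈ Q := fun l hl hb => by
    have := c4 l hl
    rwa [if_pos hb, ← hπ l hl] at this
  refine (ht.ker_ind bot_le (QuotientGroup.mk' Q) (V := K ⊓ Q) bot_le (by simp) (fun i hi => ?_) (htop x)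
    ((QuotientGroup.eq_one_iff x).2 hx)).1
  by_cases hb : (dom g).testBit i = true
  · exact Or.inl ⟨hK i hi hb, d1 i hi hb⟩
  refine Or.inr fun h2 => ?_
  obtain ⟨y, hy, e⟩ := pcS_le (K := ((pcS s ⊥ i ⊓ T.XJ j).comap π).map (QuotientGroup.mk' Q)) (fun l hl => by
    by_cases hb' : (dom g).testBit l = true
    · exact ⟨1, one_mem _, ((QuotientGroup.eq_one_iff _).2 (d1 l (by omega) hb')).symm⟩
    · have := c4 l (by omega)
      rw [if_neg hb'] at this
      exact ⟨_, show π (t l) ∈ pcS s ⊥ i ⊓ T.XJ j from hπ l (by omega) ▸ ⟨mem_pcS hl, this⟩, rfl⟩) bot_le h2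
  have h3 := c4 i hi
  rw [if_neg hb] at h3
  have h4 : π (y⁻¹ * t i) ∈ T.Up j := QuotientGroup.eq.1 e
  rw [map_mul, map_inv, hπ i hi] at h4
  refine hfree i hi (not_lt.1 fun h => hb ((hl g c1 c2).2 i h).1) ?_
  exact inv_mul_eq_one.1 (T.Up_XJ h4 (mul_mem (inv_mem hy.2) h3)) ▸ hy.1

end Cfsg.Agent.H80M
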