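/-
The Schur multiplier of the twisted group of type E₆ over the field with four elements.
-/
import Cfsg.Agent.H80M.Amb
import Cfsg.Agent.H40.MulE6b

set_option autoImplicit false

namespace Cfsg.Agent.H80M

open H63 (nf_zero' PB UB LB mem_of_pow_coprime)
open Cfsg.Lie H37 H40

variable {K : Type*} [Field K] [Fintype K] {φ : K →+* K} (hK : Fintype.card K = 2 ^ 2) (hφ : ∀ t, φ t = t ^ 2)
include hK

theorem exists_w : (2 : K) = 0 ∧ ∃ w : Kˣ, (w : K) ^ 2 = w + 1 := by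
  have : Fact (Nat.Prime 2) := ⟨Nat.prime_two⟩
  have := Fact.mk Nat.prime_three
  have : CharP K 2 := charP_of_card_eq_prime_pow hK
  have h2 : (2 : K) = 0 := CharP.cast_eq_zero K 2
  obtain ⟨w, hw⟩ := exists_prime_orderOf_dvd_card' (G := Kˣ) 3 (by
    rw [Nat.card_units, Nat.card_eq_fintype_card, hK]; rfl)
  have h3 : (w : K) ^ 3 = 1 := by rw [← Units.val_pow_eq_pow_val, ← hw, pow_orderOf_eq_one, Units.val_one]
  have h4 : (w : K) - 1 ≠ 0 := fun h => by
    rw [show w = 1 from Units.ext (sub_eq_zero.1 h)] at hw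
    simp at hw
  exact ⟨h2, w, mul_left_cancel₀ h4 (by linear_combination h3 - ((w : K) ^ 2 - 1) * h2)⟩

include hφ

theorem odd_index : ¬ 2 ∣ (((TE φ).mt.U ⊓ (TE φ).mt.Fix).subgroupOf (TE φ).mt.Fix).index := by
  have h := card_E6 Nat.prime_two.isPrimePow hK hφ
  rw [← Fix_E6 (frob_iter_self hK hφ) hφ, ← Subgroup.card_mul_index (((TE φ).mt.U ⊓ (TE φ).mt.Fix).subgroupOf _),
    Nat.card_congr (Subgroup.subgroupOfEquivOfLe inf_le_right).toEquiv, card_UE hφ hK] at h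
  rintro ⟨n, hn⟩
  rw [hn] at h
  norm_num at h
  omega

theorem pb_two : PB 2 (TE φ).mt.Fix [2, 2] := by
  obtain ⟨h2, w, hw⟩ := exists_w hK
  refine pb_of (r := 2) _ twE_lt twE_lt' (by decide) twE_cen (s := sE w) (γ := gE w φ) (fun i => ?_) (fun g => ?_)
    (sE_RT h2 hw hφ) (fun a ha => ?_) (sE_free h2 hw hK) (sE_gen h2 hw hφ hK ▸ odd_index hK hφ) tM.get zE₁ zE₂ lE₁ lE₂
    cE₁ cE₂ cE₃ cE₄
  · rcases Nat.lt_or_ge i 38 with h | h
    · exact (sE_mem h2 hw hφ h).2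
    · have e : tG.get i = tG.get 37 := by
        obtain ⟨k, rfl⟩ := Nat.exists_eq_add_of_le' h
        rfl
      rw [sE, e]; exact (sE_mem h2 hw hφ (by decide)).2
  · unfold gE wE
    split_ifs
    · exact (range_eh (frob_iter_self hK hφ)).le ⟨_, rfl⟩ |>.2
    · generalize g - 38 = n
      rcases n with _ | _ | _ | _ | n
      exacts [(TE φ).mt.n_mem_Fix 0, (TE φ).mt.n_mem_Fix 1, (TE φ).mt.n_mem_Fix 2, (TE φ).mt.n_mem_Fix 3, one_mem _]
  · obtain rfl | rfl : a = 0 ∨ a = 1 := by omega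
    all_goals exact nf_zero' _ _ _

theorem lb_four : LB (TE φ).mt.Fix (2 ^ 2) := by
  obtain ⟨h2, w, hw⟩ := exists_w hK
  refine lb_pc _ twE_lt twE_lt' (by decide) twE_cen levE (sE_RT h2 hw hφ) (fun a ha => ?_) (sE_free h2 hw hK)
    (sE_gen h2 hw hφ hK) (odd_index hK hφ) liftE (fun h a b => ⟨42, by decide, by decide, domA', torus_E h2 hw hφ hK a b⟩)
    (fun j => ⟨38 + j, by omega, by omega, ?_, fun l => sE_dom j⟩) commE
  · obtain rfl | rfl : a = 0 ∨ a = 1 := by omega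
    all_goals exact nf_zero' _ _ _
  · rw [gE, if_neg (by omega), wE, Nat.add_sub_cancel_left]; rfl

theorem card_ker_odd {Γ : Type*} [Group Γ] [Finite Γ] {σ : Γ →* (TE φ).mt.Fix} (hσ : IsStemExtension σ)
    (h : ¬ 2 ∣ Nat.card σ.ker) : Nat.card σ.ker ∣ 3 := by
  have hq := Nat.prime_two.isPrimePow
  let π := (TE φ).mt.Fix.subtype.comp σ
  have h1 : π.ker = σ.ker := by ext; simp [π]
  have hs : ∀ g ∈ (TE φ).mt.Fix, ∃ e, π e = g := fun g hg => (hσ.1 ⟨g, hg⟩).imp fun _ h => congrArg Subtype.val h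
  obtain ⟨L⟩ := (TE φ).mt.exists_lift (h1 ▸ hσ.2.1) (fun e => (σ e).2) hs (by
    rw [card_UE hφ hK, h1]; exact (Nat.prime_two.coprime_iff_not_dvd.2 h).symm.pow_right _)
  have h5 := fun j => (TE φ).sl2_orb (TE_e φ) (orbE6 j) L hs
  choose m hm using fun j => (h5 j).1
  have h6 := (L.card_dvd hm (TE φ).levi (Fix_le_G0_E6 (frob_iter_self hK hφ)) hs fun M hM => by
    rw [← M.range_subtype, MonoidHom.range_eq_top]
    refine H81.surjective_of_lift_stem (ρ := σ.comp M.subtype) (fun g => ?_) hσ rfl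
    obtain ⟨e, he, h3⟩ := hM g.1 g.2
    exact ⟨⟨e, he⟩, Subtype.ext h3⟩).trans (Finset.prod_dvd_prod_of_dvd _ _ fun j _ => (h5 j).2)
  have h7 := card_H1_E6 hq hK hφ
  rw [← Fix_E6 (frob_iter_self hK hφ) hφ, ← (TE φ).mt_H'] at h7
  rw [Fin.prod_univ_four, show (CE6.word 0).length = 1 from rfl, show (CE6.word 1).length = 1 from rfl,
    show (CE6.word 2).length = 2 from rfl, show (CE6.word 3).length = 2 from rfl, card_fix_one hq hK hφ,
    card_fix_all hK hφ, h1, show (2 - 1) * (2 - 1) * (2 ^ 2 - 1) * (2 ^ 2 - 1) = (2 - 1) ^ 4 * (2 + 1) ^ 2 from rfl,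
    ← h7] at h6
  exact Nat.dvd_of_mul_dvd_mul_right Nat.card_pos h6

theorem card_ker_exp {Γ : Type*} [Group Γ] [Finite Γ] {σ : Γ →* (TE φ).mt.Fix} (hσ : IsStemExtension σ) {p e : ℕ}
    (hp : p.Prime) (h2 : p ≠ 2) (h : ∀ z ∈ σ.ker, z ^ p ^ e = 1) : Nat.card σ.ker ∣ 3 := by
  have := Fact.mk hp
  obtain ⟨k, hk⟩ := (show IsPGroup p σ.ker from fun z => ⟨e, Subtype.ext (h z z.2)⟩).exists_card_eq
  exact card_ker_odd hK hφ hσ fun h3 => h2 ((Nat.prime_dvd_prime_iff_eq Nat.prime_two hp).1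
    (Nat.prime_two.dvd_of_dvd_pow (hk ▸ h3))).symm

omit hK hφ in
theorem exists_stem_E {q : ℕ} (hq : IsPrimePow q) (hK : Fintype.card K = q ^ 2) (hφ : ∀ t, φ t = t ^ q)
    (h3 : 3 ∣ q + 1) : ∃ (Γ : Subgroup (chevE6.SteinbergGroup K)) (σ : Γ →* (TE φ).mt.Fix),
    IsStemExtension σ ∧ Nat.card σ.ker ∣ 3 ∧ σ.ker ≠ ⊥ := by
  have := H39.st_finite (F := K) isChev_E6
  let θ := (chevE6.group K).subtype.comp (H39.stProj isChev_E6 K)
  have hk : θ.ker = Subgroup.center _ := by rw [← H39.stProj_ker isChev_E6]; ext; simp [θ]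
  have hx : ∀ w : List (ℕ × K), (∀ r ∈ w.map Prod.fst, r < chevE6.nroots) →
      θ (gword (H39.st K isChev_E6).x w) = gword (SE K).x w := fun w hw => by
    rw [H39.map_gword]
    exact H39.gword_congr fun p hp => Units.ext (H39.stProj_x _ _ _ (hw _ (List.mem_map_of_mem hp)))
  obtain ⟨Γ, σ, hσ, h1, h2⟩ := exists_stem θ hk.le (TE φ).mt.Fix
    (perfect_E6 (frob_iter_self hK hφ) (exists_sq_ne_one hq hK le_rfl)) fun g hg =>
      (H39.stProj_surjective isChev_E6 ⟨g, matRel_grp isChev_E6 K ▸ hg.1⟩).imp fun _ h => congrArg Subtype.val h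
  obtain ⟨p, hp⟩ := CharP.exists K
  have hp' := (CharP.char_is_prime K p)
  have hpq : p ∣ q := hp'.dvd_of_dvd_pow (hK ▸ (CharP.cast_eq_zero_iff K p _).1 (Nat.cast_card_eq_zero K))
  have hc : p.Coprime (Nat.card θ.ker) := by
    rw [hk, H39.card_st_center isChev_E6 (H39.torus_injective_E6 _), H39.card_centT_E6]
    refine Nat.Coprime.coprime_dvd_right (Nat.gcd_dvd_left _ _) ((Nat.coprime_primes hp' Nat.prime_three).2 ?_)
    rintro rfl
    exact not_dvd_add_one hp' hpq h3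
  have h4 : ∀ {r s : ℕ}, Orb CE6 r [s] → ∀ t, gword (H39.st K isChev_E6).x (ow φ [r, s] t) ∈ Γ := fun h t => by
    have hL := fun s hs => (h.1 s hs).1
    refine h2 _ ?_ p hc ?_
    · rw [hx _ (by rw [ow_fst]; exact hL)]
      exact ((TE φ).ow_mem_Fix (TE_e φ) h).2 (frob_iter_self hK hφ t)
    · rw [ow_pow _ _ hL h.2.2.1, CharP.cast_eq_zero, ← Nat.cast_zero, ← ow_pow _ _ hL h.2.2.1, pow_zero]
  have h5 : ∀ {r s : ℕ}, Orb CE6 r [s] → Orb CE6 (chevE6.neg r) [chevE6.neg s] → ∀ t,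
      (H39.st K isChev_E6).h r t * (H39.st K isChev_E6).h s (φ t) ∈ Γ := fun {r s} h h' t => by
    have hL := fun s hs => (h.1 s hs).1
    have h6 : ∀ t, onw (H39.st K isChev_E6) φ [r, s] t ∈ Γ := fun t => by
      rw [onw_eq _ φ hL h.2.2.1 t]; exact mul_mem (mul_mem (h4 h _) (h4 h' _)) (h4 h _)
    have h7 := mul_mem (h6 t) (h6 (-1))
    have h8 := h.2.2.1.comm (H39.st K isChev_E6) (n_mem_pm _ (hL r (by simp)) (-1)) (n_mem_pm _ (hL s (by simp)) (φ t))
    simp only [onw, mul_one, map_neg, map_one] at h7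
    rwa [h_def, h_def, mul_assoc, ← mul_assoc _ ((H39.st K isChev_E6).n s _), h8.eq, mul_assoc, ← mul_assoc]
  obtain ⟨s, hs⟩ : ∃ s : Kˣ, orderOf s = 3 := by
    have := Fact.mk Nat.prime_three
    refine exists_prime_orderOf_dvd_card' 3 ?_
    rw [Nat.card_units, Nat.card_eq_fintype_card, hK, show q ^ 2 - 1 = (q + 1) * (q - 1) by
      simpa using Nat.sq_sub_sq q 1]
    exact h3.mul_right _
  have hs3 : s ^ 3 = 1 := hs ▸ pow_orderOf_eq_one s
  have hs' : s * Units.map (φ : K →* K) s = 1 := by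
    rw [show Units.map (φ : K →* K) s = s ^ q from Units.ext (hφ s), ← pow_succ', ← orderOf_dvd_iff_pow_eq_one, hs]
    exact h3
  have h9 := mul_mem (h5 (r := 42) (s := 37) (by decide +kernel) (by decide +kernel) (s ^ 2 : Kˣ))
    (h5 (r := 56) (s := 36) (by decide +kernel) (by decide +kernel) s)
  have h10 : ∀ (i : Fin chevE6.rank) (c : Kˣ), H39.torus (H39.st K isChev_E6) (Pi.mulSingle i c) =
      (H39.st K isChev_E6).h (chevE6.simple i) c := fun i c => by rw [H39.torus_mulSingle, H38.rg_h]; rfl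
  have h11 : ∀ r < chevE6.nroots, ∀ t, θ ((H39.st K isChev_E6).h r t) = (SE K).h r t := fun r hr t =>
    hx _ fun s hs => by obtain ⟨a, ha, rfl⟩ := List.mem_map.1 hs; exact H39.hWord_lt hr _ a ha
  refine ⟨Γ, σ, hσ, ?_, fun h => ?_⟩
  · rw [← Subgroup.card_map_of_injective Γ.subtype_injective]
    refine (Subgroup.card_dvd_of_le (K := θ.ker) ?_).trans ?_
    · rintro _ ⟨x, hx, rfl⟩
      exact (h1 x).symm.trans (congrArg Subtype.val hx)
    · rw [hk, H39.card_st_center isChev_E6 (H39.torus_injective_E6 _), H39.card_centT_E6]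
      exact Nat.gcd_dvd_left _ _
  have h12 : (⟨_, h9⟩ : Γ) ∈ σ.ker := by
    refine Subtype.ext ((h1 _).trans ?_)
    have e := isH_eh φ ((s, s ^ 2), 1, 1)
    rw [(eh_eq_one φ).2 ⟨hs3, hs', rfl, rfl, rfl⟩] at e
    simp only [map_mul, h11 _ (show 42 < _ by decide), h11 _ (show 37 < _ by decide), h11 _ (show 56 < _ by decide),
      h11 _ (show 36 < _ by decide)]
    refine (((isH_simple (SE K) (i := 2) (by decide) (s ^ 2)).mul (isH_simple (SE K) (i := 4) (by decide)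
      (Units.map (φ : K →* K) (s ^ 2)))).mul ((isH_simple (SE K) (i := 0) (by decide) s).mul (isH_simple (SE K)
      (i := 5) (by decide) (Units.map (φ : K →* K) s)))).uniq (matRel_adj _ _) (e.congr fun i hi => ?_)
    obtain rfl | rfl | rfl | rfl | rfl | rfl := lt_six hi <;> simp [ec]
  rw [h, Subgroup.mem_bot, Subtype.ext_iff] at h12
  have h13 := H39.torus_injective_E6 isChev_E6 (F := K) (a₁ := Pi.mulSingle ⟨2, by decide⟩ (s ^ 2) *
    Pi.mulSingle ⟨4, by decide⟩ (Units.map (φ : K →* K) (s ^ 2)) * (Pi.mulSingle ⟨0, by decide⟩ s *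
    Pi.mulSingle ⟨5, by decide⟩ (Units.map (φ : K →* K) s))) (a₂ := 1) (by
      simp only [map_mul, h10, map_one]; exact h12)
  have h14 := congrFun h13 ⟨0, by decide⟩
  simp at h14
  simp [h14] at hs

theorem mult_E : HasSchurMultiplier (TE φ).mt.Fix (Multiplicative (ZMod 3 × ZMod 2 × ZMod 2)) := by
  have := Fact.mk Nat.prime_three
  have h1 : ∀ {Γ : Type _} [Group Γ] {Z : Subgroup Γ}, Nat.card Z ∣ 3 → ∀ z ∈ Z, z ^ 3 = 1 := fun h z hz =>
    congrArg Subtype.val (orderOf_dvd_iff_pow_eq_one.1 ((orderOf_dvd_natCard (⟨z, hz⟩ : _)).trans h))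
  refine H63.mult_prod3 (UB.of_PB [(3, [3]), (2, [2, 2])] ?_ fun q hq h => ?_) (LB.mul ?_ (lb_four hK hφ) (by decide))
  · simp only [List.forall_mem_cons, List.not_mem_nil, false_imp_iff, implies_true, and_true]
    refine ⟨PB.of_exp (e := 1) Nat.prime_three (by simp) fun Γ _ _ σ hσ h => ?_, pb_two hK hφ⟩
    have h2 := card_ker_exp hK hφ hσ Nat.prime_three (by decide) h
    obtain ⟨g, hg⟩ := (isCyclic_of_card_dvd_prime h2).exists_generator
    refine ⟨[g], .cons ⟨g.2, h1 h2 _ g.2⟩ .nil, fun z hz => ?_⟩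
    obtain ⟨k, hk⟩ := hg ⟨z, hz⟩
    exact (show g.1 ^ k = z from congrArg Subtype.val hk) ▸ zpow_mem (Subgroup.subset_closure (by simp)) k
  · simp only [List.map_cons, List.map_nil, List.mem_cons, List.not_mem_nil, or_false, not_or] at h
    exact PB.of_exp (e := 0) hq (by simp) fun Γ _ _ σ hσ h2 => ⟨[], .nil, fun z hz => mem_of_pow_coprime
      (((Nat.coprime_primes hq Nat.prime_three).2 h.1).pow_left _) (h2 z hz ▸ one_mem _)
      (h1 (card_ker_exp hK hφ hσ hq h.2 h2) z hz ▸ one_mem _)⟩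
  · have := H39.st_finite (F := K) isChev_E6
    obtain ⟨Γ, σ, hσ, h2, h3⟩ := exists_stem_E Nat.prime_two.isPrimePow hK hφ (by decide)
    exact ((Nat.dvd_prime Nat.prime_three).1 h2).resolve_left (fun e => h3 (Subgroup.card_eq_one.1 e)) ▸
      LB.of_ext σ hσ.1 hσ.2.1 _ le_rfl hσ.2.2

end Cfsg.Agent.H80M
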